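/-
`PSL₂(11)` acting on the eleven cosets of `A₅`.
-/
import Mathlib
import Cfsg.Agent.Lib.LocalEven.PslMax

set_option autoImplicit false
set_option linter.unusedVariables false
set_option linter.unusedSectionVars false

namespace Cfsg.Agent.Lib.H14.L211

open MulAction

/-! ### Explicit subgroups of `A₅` -/

/-- The Klein four-group in `A₅` (fixing the last point). -/
def V0 : Subgroup (alternatingGroup (Fin 5)) where
  carrier := {x | x.1 4 = 4 ∧ x ^ 2 = 1}
  mul_mem' := by
    have : ∀ x y : alternatingGroup (Fin 5), (x.1 4 = 4 ∧ x ^ 2 = 1) → (y.1 4 = 4 ∧ y ^ 2 = 1) →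
      ((x * y).1 4 = 4 ∧ (x * y) ^ 2 = 1) := by decide +kernel
    exact fun {a b} ha hb => this a b ha hb
  one_mem' := by decide +kernel
  inv_mem' := by
    have : ∀ x : alternatingGroup (Fin 5), (x.1 4 = 4 ∧ x ^ 2 = 1) → (x⁻¹.1 4 = 4 ∧ x⁻¹ ^ 2 = 1) := by
      decide +kernel
    exact fun {a} ha => this a ha

/-- The copy of `A₄` in `A₅`. -/
def T0 : Subgroup (alternatingGroup (Fin 5)) where
  carrier := {x | x.1 4 = 4}
  mul_mem' := by
    have : ∀ x y : alternatingGroup (Fin 5), (x.1 4 = 4) → (y.1 4 = 4) → ((x * y).1 4 = 4) := by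
      decide +kernel
    exact fun {a b} ha hb => this a b ha hb
  one_mem' := by decide +kernel
  inv_mem' := by
    have : ∀ x : alternatingGroup (Fin 5), (x.1 4 = 4) → (x⁻¹.1 4 = 4) := by decide +kernel
    exact fun {a} ha => this a ha

theorem mem_V0 {x : alternatingGroup (Fin 5)} : x ∈ V0 ↔ x.1 4 = 4 ∧ x ^ 2 = 1 := Iff.rfl
theorem mem_T0 {x : alternatingGroup (Fin 5)} : x ∈ T0 ↔ x.1 4 = 4 := Iff.rfl

theorem card_V0 : Nat.card V0 = 4 := by
  have : Nat.card V0 = (Finset.univ.filter (fun x : alternatingGroup (Fin 5) => x.1 4 = 4 ∧ x ^ 2 = 1)).card := by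
    rw [Nat.subtype_card]
    intro x
    simp [mem_V0]
  rw [this]
  decide +kernel

theorem card_T0 : Nat.card T0 = 12 := by
  have : Nat.card T0 = (Finset.univ.filter (fun x : alternatingGroup (Fin 5) => x.1 4 = 4)).card := by
    rw [Nat.subtype_card]
    intro x
    simp [mem_T0]
  rw [this]
  decide +kernel

theorem T0_norm : ∀ x y : alternatingGroup (Fin 5), y ∈ T0 → x ∈ V0 → y * x * y⁻¹ ∈ V0 := by
  have : ∀ x y : alternatingGroup (Fin 5), (y.1 4 = 4) → (x.1 4 = 4 ∧ x ^ 2 = 1) →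
      ((y * x * y⁻¹).1 4 = 4 ∧ (y * x * y⁻¹) ^ 2 = 1) := by decide +kernel
  exact this

theorem card_A5 : Nat.card (alternatingGroup (Fin 5)) = 60 := by
  rw [Nat.card_eq_fintype_card]
  decide +kernel

/-! ### Conjugacy of subgroups of maximal `p`-power order -/

variable {G : Type*} [Group G] [Finite G]

theorem exists_conj_of_card {H A B : Subgroup G} (hA : A ≤ H) (hB : B ≤ H) {p : ℕ} [Fact p.Prime] {k : ℕ}
    (hcA : Nat.card A = p ^ k) (hcB : Nat.card B = p ^ k) (hk : ¬ p ^ (k + 1) ∣ Nat.card H) :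
    ∃ h ∈ H, ∀ x, x ∈ B ↔ h⁻¹ * x * h ∈ A := by
  have hA' : Nat.card (A.subgroupOf H) = p ^ k := by
    rw [Nat.card_congr (Subgroup.subgroupOfEquivOfLe hA).toEquiv, hcA]
  have hB' : Nat.card (B.subgroupOf H) = p ^ k := by
    rw [Nat.card_congr (Subgroup.subgroupOfEquivOfLe hB).toEquiv, hcB]
  have hne : Nat.card H ≠ 0 := Nat.card_pos.ne'
  have hfac : p ^ k = p ^ (Nat.card H).factorization p := by
    have hd : p ^ k ∣ Nat.card H := by
      rw [← hA']
      exact Subgroup.card_subgroup_dvd_card _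
    have h1 : k ≤ (Nat.card H).factorization p :=
      (Fact.out : p.Prime).pow_dvd_iff_le_factorization hne |>.1 hd
    have h2 : ¬ k + 1 ≤ (Nat.card H).factorization p := fun h =>
      hk ((Fact.out : p.Prime).pow_dvd_iff_le_factorization hne |>.2 h)
    congr 1
    omega
  let SA : Sylow p H := Sylow.ofCard (A.subgroupOf H) (by rw [hA', hfac])
  let SB : Sylow p H := Sylow.ofCard (B.subgroupOf H) (by rw [hB', hfac])
  obtain ⟨h, hh⟩ := MulAction.exists_smul_eq H SA SB
  refine ⟨h, h.2, fun x => ?_⟩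
  have hSA : ∀ y : H, y ∈ SA ↔ (y : G) ∈ A := fun y => Iff.rfl
  have hSB : ∀ y : H, y ∈ SB ↔ (y : G) ∈ B := fun y => Iff.rfl
  have hsm : ∀ y : H, y ∈ SB ↔ h⁻¹ * y * h ∈ SA := by
    intro y
    rw [← hh]
    change y ∈ ((h • SA : Sylow p H) : Subgroup H) ↔ _
    rw [Sylow.coe_subgroup_smul, Subgroup.mem_pointwise_smul_iff_inv_smul_mem]
    simp [MulAut.smul_def]
    exact Iff.rfl
  constructor
  · intro hx
    have hxH : x ∈ H := hB hx
    have := (hsm ⟨x, hxH⟩).1 ((hSB _).2 hx)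
    simpa using (hSA _).1 this
  · intro hx
    have hxH : x ∈ H := by
      have := hA hx
      have h2 : (h : G) * (h⁻¹ * x * h) * h⁻¹ ∈ H := H.mul_mem (H.mul_mem h.2 this) (H.inv_mem h.2)
      simpa [mul_assoc] using h2
    have : (⟨x, hxH⟩ : H) ∈ SB := by
      rw [hsm]
      exact (hSA _).2 (by simpa using hx)
    exact (hSB _).1 this

/-! ### The normaliser of the Klein four-group -/

theorem commute_of_coprime {V : Subgroup G} (hV : Nat.card V = 4) {y : G}
    (hy : y ∈ Subgroup.normalizer (V : Set G)) (hc : Nat.Coprime (orderOf y) 24) {t : G} (ht : t ∈ V) :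
    Commute y t := by
  let φ := (MulAut.toPerm (M := V)).comp V.normalizerMonoidHom
  let y' : Subgroup.normalizer (V : Set G) := ⟨y, hy⟩
  have h1 : orderOf (φ y') ∣ 24 := by
    have : Nat.card (Equiv.Perm V) = 24 := by
      rw [Nat.card_perm, hV]
      rfl
    rw [← this]
    exact orderOf_dvd_natCard _
  have h2 : orderOf (φ y') ∣ orderOf y := by
    have h := orderOf_map_dvd φ y'
    have h' : orderOf y' = orderOf y := Subgroup.orderOf_mk y hy
    rwa [h'] at h
  have h3 : orderOf (φ y') = 1 := Nat.eq_one_of_dvd_coprimes hc h2 h1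
  have h4 : φ y' = 1 := orderOf_eq_one_iff.1 h3
  have h5 : φ y' ⟨t, ht⟩ = ⟨t, ht⟩ := by rw [h4]; rfl
  have h6 : y * t * y⁻¹ = t := congrArg Subtype.val h5
  exact (mul_inv_eq_iff_eq_mul.1 h6)

theorem norm_le_of_card (hG : Nat.card G = 660)
    (ho10 : ∀ y t : G, Commute y t → orderOf t = 2 → orderOf y = 5 → False)
    (ho22 : ∀ y t : G, Commute y t → orderOf t = 2 → orderOf y = 11 → False)
    {V T : Subgroup G} (hV : Nat.card V = 4) (hT : T ≤ Subgroup.normalizer (V : Set G)) (hT12 : Nat.card T = 12) :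
    Subgroup.normalizer (V : Set G) ≤ T := by
  haveI : Fact (Nat.Prime 2) := ⟨by norm_num⟩
  haveI : Fact (Nat.Prime 5) := ⟨by norm_num⟩
  haveI : Fact (Nat.Prime 11) := ⟨by norm_num⟩
  obtain ⟨t₀, ht₀⟩ : ∃ t : V, orderOf t = 2 := exists_prime_orderOf_dvd_card' 2 (by rw [hV]; norm_num)
  have ht₀' : orderOf (t₀ : G) = 2 := by rw [Subgroup.orderOf_coe]; exact ht₀
  set N := Subgroup.normalizer (V : Set G) with hN
  have h5 : ¬ 5 ∣ Nat.card N := by
    intro h
    obtain ⟨y, hy⟩ : ∃ y : N, orderOf y = 5 := exists_prime_orderOf_dvd_card' 5 h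
    have hy' : orderOf (y : G) = 5 := by rw [Subgroup.orderOf_coe]; exact hy
    exact ho10 y t₀ (commute_of_coprime hV y.2 (by rw [hy']; norm_num) t₀.2) ht₀' hy'
  have h11 : ¬ 11 ∣ Nat.card N := by
    intro h
    obtain ⟨y, hy⟩ : ∃ y : N, orderOf y = 11 := exists_prime_orderOf_dvd_card' 11 h
    have hy' : orderOf (y : G) = 11 := by rw [Subgroup.orderOf_coe]; exact hy
    exact ho22 y t₀ (commute_of_coprime hV y.2 (by rw [hy']; norm_num) t₀.2) ht₀' hy'
  have hd : Nat.card N ∣ 660 := by rw [← hG]; exact Subgroup.card_subgroup_dvd_card N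
  have hd12 : Nat.card N ∣ 12 := by
    have hc : Nat.Coprime (Nat.card N) 55 := by
      have h5' : Nat.Coprime (Nat.card N) 5 := ((Nat.Prime.coprime_iff_not_dvd (by norm_num)).2 h5).symm
      have h11' : Nat.Coprime (Nat.card N) 11 := ((Nat.Prime.coprime_iff_not_dvd (by norm_num)).2 h11).symm
      have : (55 : ℕ) = 5 * 11 := by norm_num
      rw [this]
      exact Nat.Coprime.mul_right h5' h11'
    have h660 : (660 : ℕ) = 55 * 12 := by norm_num
    rw [h660] at hd
    exact hc.dvd_of_dvd_mul_left hd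
  have hle : Nat.card N ≤ Nat.card T := by
    rw [hT12]
    exact Nat.le_of_dvd (by norm_num) hd12
  have := Subgroup.eq_of_le_of_card_ge hT hle
  exact this.ge

/-! ### Simple groups of order 60 -/

theorem no_index_four {A : Type*} [Group A] [Finite A] [IsSimpleGroup A] (hA : Nat.card A = 60) (S : Subgroup A)
    (hS : S.index = 4 ∨ S.index = 2) : False := by
  let φ := MulAction.toPermHom A (A ⧸ S)
  rcases IsSimpleGroup.eq_bot_or_eq_top_of_normal φ.ker inferInstance with h | h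
  · have hinj : Function.Injective φ := (MonoidHom.ker_eq_bot_iff φ).1 h
    have hd := Subgroup.card_dvd_of_injective φ hinj
    rw [hA, Nat.card_perm] at hd
    have : Nat.card (A ⧸ S) = S.index := rfl
    rw [this] at hd
    rcases hS with hS | hS <;> rw [hS] at hd <;> revert hd <;> decide
  · have : S = ⊤ := by
      rw [eq_top_iff]
      intro a _
      have ha : a ∈ φ.ker := by rw [h]; trivial
      have h1 : φ a ((1 : A) : A ⧸ S) = ((1 : A) : A ⧸ S) := by
        rw [MonoidHom.mem_ker.1 ha]; rfl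
      have h2 : ((a * 1 : A) : A ⧸ S) = ((1 : A) : A ⧸ S) := h1
      rw [QuotientGroup.eq] at h2
      simpa using S.inv_mem h2
    rw [this, Subgroup.index_top] at hS
    omega

section Main

variable (H : Subgroup G) (e : H ≃* alternatingGroup (Fin 5))

/-- The embedding of `A₅`. -/
def emb : alternatingGroup (Fin 5) →* G := H.subtype.comp e.symm.toMonoidHom

theorem emb_inj : Function.Injective (emb H e) := fun x y h => e.symm.injective (Subtype.ext h)

theorem emb_mem (x : alternatingGroup (Fin 5)) : emb H e x ∈ H := (e.symm x).2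

/-- The Klein four-group of `H`. -/
def Vv : Subgroup G := V0.map (emb H e)

/-- The `A₄` of `H`. -/
def Tv : Subgroup G := T0.map (emb H e)

theorem card_Vv : Nat.card (Vv H e) = 4 := by
  rw [Vv, Nat.card_congr (Subgroup.equivMapOfInjective V0 _ (emb_inj H e)).symm.toEquiv, card_V0]

theorem card_Tv : Nat.card (Tv H e) = 12 := by
  rw [Tv, Nat.card_congr (Subgroup.equivMapOfInjective T0 _ (emb_inj H e)).symm.toEquiv, card_T0]

theorem Vv_le : Vv H e ≤ H := by
  rintro _ ⟨x, -, rfl⟩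
  exact emb_mem H e x

theorem Tv_le : Tv H e ≤ H := by
  rintro _ ⟨x, -, rfl⟩
  exact emb_mem H e x

include e in
theorem card_H : Nat.card H = 60 := by
  rw [Nat.card_congr e.toEquiv, card_A5]

theorem Tv_le_norm : Tv H e ≤ Subgroup.normalizer (Vv H e : Set G) := by
  rintro _ ⟨y, hy, rfl⟩
  apply Subgroup.mem_normalizer_fintype
  rintro _ ⟨x, hx, rfl⟩
  refine ⟨y * x * y⁻¹, T0_norm x y hy hx, ?_⟩
  simp [map_mul, map_inv]

variable (hG : Nat.card G = 660)
    (ho10 : ∀ y t : G, Commute y t → orderOf t = 2 → orderOf y = 5 → False)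
    (ho22 : ∀ y t : G, Commute y t → orderOf t = 2 → orderOf y = 11 → False)

include e hG ho10 ho22 in
/-- The normaliser of the Klein four-group lies in `H`. -/
theorem norm_le_H : Subgroup.normalizer (Vv H e : Set G) ≤ H :=
  (norm_le_of_card hG ho10 ho22 (card_Vv H e) (Tv_le_norm H e) (card_Tv H e)).trans (Tv_le H e)

include e hG ho10 ho22 in
/-- A four-subgroup of `H` is never conjugated into `H` by an element outside `H`. -/
theorem mem_of_four {W : Subgroup G} (hW : W ≤ H) (hW4 : Nat.card W = 4) {g : G}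
    (hg : ∀ w ∈ W, g⁻¹ * w * g ∈ H) : g ∈ H := by
  haveI : Fact (Nat.Prime 2) := ⟨by norm_num⟩
  have hk : ¬ 2 ^ (2 + 1) ∣ Nat.card H := by
    rw [card_H H e]
    norm_num
  let W' : Subgroup G := W.map (MulAut.conj g⁻¹).toMonoidHom
  have hW'le : W' ≤ H := by
    rintro _ ⟨w, hw, rfl⟩
    have := hg w hw
    simpa [MulAut.conj_apply] using this
  have hW'4 : Nat.card W' = 4 := by
    rw [Nat.card_congr (Subgroup.equivMapOfInjective W _ (MulAut.conj g⁻¹).injective).symm.toEquiv, hW4]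
  obtain ⟨h₁, hh₁, h1⟩ := exists_conj_of_card (p := 2) (k := 2) (Vv_le H e) hW (card_Vv H e) hW4 hk
  obtain ⟨h₂, hh₂, h2⟩ := exists_conj_of_card (p := 2) (k := 2) (Vv_le H e) hW'le (card_Vv H e) hW'4 hk
  have hnorm : h₁⁻¹ * g * h₂ ∈ Subgroup.normalizer (Vv H e : Set G) := by
    apply Subgroup.mem_normalizer_fintype
    intro v hv
    have hv' : h₂ * v * h₂⁻¹ ∈ W' := by
      rw [h2]
      simpa [mul_assoc] using hv
    obtain ⟨w, hw, hwe⟩ := hv'
    have hwe' : w = g * (h₂ * v * h₂⁻¹) * g⁻¹ := by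
      rw [← hwe]
      simp [MulAut.conj_apply, mul_assoc]
    have hw1 := (h1 w).1 hw
    rw [hwe'] at hw1
    have : h₁⁻¹ * g * h₂ * v * (h₁⁻¹ * g * h₂)⁻¹ = h₁⁻¹ * (g * (h₂ * v * h₂⁻¹) * g⁻¹) * h₁ := by
      group
    rw [this]
    exact hw1
  have hm := norm_le_H H e hG ho10 ho22 hnorm
  have : g = h₁ * (h₁⁻¹ * g * h₂) * h₂⁻¹ := by group
  rw [this]
  exact H.mul_mem (H.mul_mem hh₁ hm) (H.inv_mem hh₂)

include e in
theorem index_eq (hG : Nat.card G = 660) : H.index = 11 := by
  have h := Subgroup.card_mul_index H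
  rw [card_H H e, hG] at h
  omega

include e hG ho10 ho22 in
/-- Orbits of `H` on the other cosets have at least six points. -/
theorem orbit_ge (g : G) (hg : g ∉ H) : 6 ≤ (orbit H ((g : G) : G ⧸ H)).ncard := by
  haveI : Fact (Nat.Prime 2) := ⟨by norm_num⟩
  by_contra hlt
  push Not at hlt
  set S := stabilizer H ((g : G) : G ⧸ H) with hS
  have h0 := Subgroup.card_mul_index S
  rw [card_H H e] at h0
  have h00 : S.index = (orbit H ((g : G) : G ⧸ H)).ncard := index_stabilizer H _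
  set i := (orbit H ((g : G) : G ⧸ H)).ncard with hi
  rw [h00, mul_comm] at h0
  have h4 : i ≠ 4 ∧ i ≠ 2 := by
    haveI := alternatingGroup.isSimpleGroup (α := Fin 5) (by simp)
    haveI : IsSimpleGroup H := MulEquiv.isSimpleGroup e
    constructor
    · intro h
      exact no_index_four (card_H H e) S (Or.inl (h00.trans h))
    · intro h
      exact no_index_four (card_H H e) S (Or.inr (h00.trans h))
  have hd4 : 2 ^ 2 ∣ Nat.card S := by
    have hi0 : i ≠ 0 := by
      intro h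
      rw [h] at h0
      simp at h0
    have hc : i = 1 ∨ i = 3 ∨ i = 5 := by omega
    have e4 : (2 : ℕ) ^ 2 = 4 := by norm_num
    rw [e4]
    generalize Nat.card S = c at h0 ⊢
    rcases hc with h | h | h <;> rw [h] at h0 <;> omega
  obtain ⟨W₀, hW₀⟩ := Sylow.exists_subgroup_card_pow_prime 2 hd4
  let W : Subgroup G := (W₀.map S.subtype).map H.subtype
  have hWc : Nat.card W = 4 := by
    have h1 : Nat.card W = Nat.card W₀ := by
      rw [Nat.card_congr (Subgroup.equivMapOfInjective (W₀.map S.subtype) _ H.subtype_injective).symm.toEquiv,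
        Nat.card_congr (Subgroup.equivMapOfInjective W₀ _ S.subtype_injective).symm.toEquiv]
    rw [h1, hW₀]
    norm_num
  apply hg
  refine mem_of_four H e hG ho10 ho22 (W := W) ?_ hWc ?_
  · rintro _ ⟨_, -, rfl⟩
    exact Subtype.property _
  · rintro _ ⟨_, ⟨w, hw, rfl⟩, rfl⟩
    have hst : (w : H) • ((g : G) : G ⧸ H) = ((g : G) : G ⧸ H) := w.2
    have h1 : (((w : H) : G) * g : G) = (g : G) ∨ True := Or.inr trivial
    have h2 : (((((w : H) : G) * g : G)) : G ⧸ H) = ((g : G) : G ⧸ H) := hst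
    rw [QuotientGroup.eq] at h2
    have h3 : (((w : H) : G) * g)⁻¹ * g ∈ H := h2
    have h4' := H.inv_mem h3
    simpa [mul_assoc] using h4'

include e hG ho10 ho22 in
/-- `H` is transitive on the other ten cosets. -/
theorem trans_on (g g' : G) (hg : g ∉ H) (hg' : g' ∉ H) :
    ∃ h ∈ H, (h : G) • ((g : G) : G ⧸ H) = ((g' : G) : G ⧸ H) := by
  classical
  by_contra hno
  push Not at hno
  set x : G ⧸ H := ((g : G) : G ⧸ H) with hx
  set y : G ⧸ H := ((g' : G) : G ⧸ H) with hy
  set b : G ⧸ H := ((1 : G) : G ⧸ H) with hb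
  have h1 : 6 ≤ (orbit H x).ncard := orbit_ge H e hG ho10 ho22 g hg
  have h2 : 6 ≤ (orbit H y).ncard := orbit_ge H e hG ho10 ho22 g' hg'
  have hdisj : Disjoint (orbit H x) (orbit H y) := by
    rw [Set.disjoint_left]
    rintro z ⟨u, rfl⟩ ⟨v, hv⟩
    apply hno ((v⁻¹ * u : H) : G) (v⁻¹ * u : H).2
    have hv' : (v : G) • y = (u : G) • x := hv
    have : ((v⁻¹ * u : H) : G) • x = (v : G)⁻¹ • ((u : G) • x) := by
      simp [mul_smul]
    rw [this, ← hv', inv_smul_smul]
  have hbn : ∀ z : G, z ∉ H → b ∉ orbit H ((z : G) : G ⧸ H) := by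
    rintro z hz ⟨u, hu⟩
    apply hz
    have hu' : (((u : G) * z : G) : G ⧸ H) = ((1 : G) : G ⧸ H) := hu
    rw [QuotientGroup.eq] at hu'
    have h3 : ((u : G) * z)⁻¹ * 1 ∈ H := hu'
    have h4 : (u : G) * z ∈ H := by simpa using H.inv_mem h3
    have : z = (u : G)⁻¹ * ((u : G) * z) := by group
    rw [this]
    exact H.mul_mem (H.inv_mem u.2) h4
  have hcard : (Set.univ : Set (G ⧸ H)).ncard = 11 := by
    rw [Set.ncard_univ]
    exact index_eq H e hG
  have hun : (orbit H x ∪ orbit H y).ncard = (orbit H x).ncard + (orbit H y).ncard :=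
    Set.ncard_union_eq hdisj (Set.toFinite _) (Set.toFinite _)
  have hins : (insert b (orbit H x ∪ orbit H y)).ncard = (orbit H x ∪ orbit H y).ncard + 1 := by
    apply Set.ncard_insert_of_notMem
    · rintro (h | h)
      · exact hbn g hg h
      · exact hbn g' hg' h
    · exact Set.toFinite _
  have hle : (insert b (orbit H x ∪ orbit H y)).ncard ≤ (Set.univ : Set (G ⧸ H)).ncard :=
    Set.ncard_le_ncard (Set.subset_univ _) (Set.toFinite _)
  omega

include e hG ho10 ho22 in
/-- 2-transitivity. -/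
theorem two_trans : IsMultiplyPretransitive G (G ⧸ H) 2 := by
  rw [is_two_pretransitive_iff]
  intro a b c d hab hcd
  obtain ⟨s, rfl⟩ := QuotientGroup.mk_surjective a
  obtain ⟨t, rfl⟩ := QuotientGroup.mk_surjective b
  obtain ⟨u, rfl⟩ := QuotientGroup.mk_surjective c
  obtain ⟨v, rfl⟩ := QuotientGroup.mk_surjective d
  have h1 : s⁻¹ * t ∉ H := by
    intro h
    apply hab
    exact QuotientGroup.eq.2 h
  have h2 : u⁻¹ * v ∉ H := by
    intro h
    apply hcd
    exact QuotientGroup.eq.2 h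
  obtain ⟨h, hh, he⟩ := trans_on H e hG ho10 ho22 (s⁻¹ * t) (u⁻¹ * v) h1 h2
  refine ⟨u * h * s⁻¹, ?_, ?_⟩
  · have e1 : (((h : G) : G) * 1 : G) = h := mul_one _
    apply QuotientGroup.eq.2
    have : (u * h * s⁻¹ * s)⁻¹ * u = h⁻¹ := by group
    change (u * h * s⁻¹ * s)⁻¹ * u ∈ H
    rw [this]
    exact H.inv_mem hh
  · have e2 : (((h * (s⁻¹ * t) : G)) : G ⧸ H) = ((u⁻¹ * v : G) : G ⧸ H) := he
    rw [QuotientGroup.eq] at e2
    apply QuotientGroup.eq.2
    have : (u * h * s⁻¹ * t)⁻¹ * v = (h * (s⁻¹ * t))⁻¹ * (u⁻¹ * v) := by group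
    change (u * h * s⁻¹ * t)⁻¹ * v ∈ H
    rw [this]
    exact e2

end Main

/-! ### `PSL₂(11)` -/

section PSL

open Cfsg.Agent.Lib.Classical

variable {F : Type*} [Field F] [Fintype F]

theorem charP_eleven (hF : Fintype.card F = 11) : CharP F 11 := by
  obtain ⟨p, hp⟩ := CharP.exists F
  obtain ⟨n, hpp, hn⟩ := FiniteField.card F p
  rw [hF] at hn
  have h11 : Nat.Prime 11 := by norm_num
  have hd : p ∣ 11 := by
    rw [hn]
    exact dvd_pow_self _ n.ne_zero
  have : p = 11 := (Nat.prime_dvd_prime_iff_eq hpp h11).1 hd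
  rwa [this] at hp

theorem card_pe (hF : Fintype.card F = 11) : Nat.card (Pe F) = 660 := by
  haveI := charP_eleven hF
  haveI : Fact (Nat.Prime 11) := ⟨by norm_num⟩
  have h := card_gcd_mul hF
  norm_num at h
  omega

theorem ord_pe (hF : Fintype.card F = 11) (g : Pe F) (hg : g ^ 11 ≠ 1) : orderOf g ∣ 6 ∨ orderOf g ∣ 5 := by
  haveI := charP_eleven hF
  haveI : Fact (Nat.Prime 11) := ⟨by norm_num⟩
  have h := ss_order 11 hF g hg
  norm_num at h
  exact h

theorem pe_ho10 (hF : Fintype.card F = 11) (y t : Pe F) (hc : Commute y t) (ht : orderOf t = 2) (hy : orderOf y = 5) :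
    False := by
  have h1 : orderOf (y * t) = 10 := by
    rw [hc.orderOf_mul_eq_mul_orderOf_of_coprime (by rw [hy, ht]; norm_num), hy, ht]
  have h2 : (y * t) ^ 11 ≠ 1 := by
    intro h
    have := orderOf_dvd_of_pow_eq_one h
    rw [h1] at this
    omega
  have h3 := ord_pe hF _ h2
  rw [h1] at h3
  omega

theorem pe_ho22 (hF : Fintype.card F = 11) (y t : Pe F) (hc : Commute y t) (ht : orderOf t = 2) (hy : orderOf y = 11) :
    False := by
  have h1 : orderOf (y * t) = 22 := by
    rw [hc.orderOf_mul_eq_mul_orderOf_of_coprime (by rw [hy, ht]; norm_num), hy, ht]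
  have h2 : (y * t) ^ 11 ≠ 1 := by
    intro h
    have := orderOf_dvd_of_pow_eq_one h
    rw [h1] at this
    omega
  have h3 := ord_pe hF _ h2
  rw [h1] at h3
  omega

theorem exists_a5 (hF : Fintype.card F = 11) : ∃ H : Subgroup (Pe F), IsCoatom H ∧ Nonempty (H ≃* alternatingGroup (Fin 5)) := by
  haveI := charP_eleven hF
  haveI : Fact (Nat.Prime 11) := ⟨by norm_num⟩
  exact Cfsg.Agent.Lib.LocalEven.PslMax.main_A5 11 (Or.inl ⟨hF, Or.inl (by norm_num)⟩)

end PSL

end Cfsg.Agent.Lib.H14.L211
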