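/-
The `A₅` subgroups of `PSL₂(11)`: two conjugacy classes, from local data.
-/
import Mathlib
import Cfsg.Agent.Lib.H14.L211

set_option autoImplicit false
set_option linter.unusedVariables false
set_option linter.unusedSectionVars false
set_option linter.style.haveILetI false

namespace Cfsg.Agent.Lib.H14.L211

open MulAction
open scoped Pointwise

variable {G : Type*} [Group G] [Finite G]

theorem mem_cj {g x : G} {L : Subgroup G} : x ∈ MulAut.conj g • L ↔ g⁻¹ * x * g ∈ L := by
  rw [Subgroup.mem_pointwise_smul_iff_inv_smul_mem]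
  simp [MulAut.smul_def, MulAut.conj_inv_apply]

theorem cj_eq_of_mem {g : G} {L : Subgroup G} (hg : g ∈ L) : MulAut.conj g • L = L := by
  ext x
  rw [mem_cj]
  constructor
  · intro h
    have : x = g * (g⁻¹ * x * g) * g⁻¹ := by group
    rw [this]
    exact L.mul_mem (L.mul_mem hg h) (L.inv_mem hg)
  · intro h
    exact L.mul_mem (L.mul_mem (L.inv_mem hg) h) hg

theorem range_ncard {H : Subgroup G} (hN : ∀ n : G, MulAut.conj n • H = H → n ∈ H) :
    (Set.range fun g : G => MulAut.conj g • H).ncard = H.index := by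
  classical
  let F : G ⧸ H → Subgroup G := fun x => MulAut.conj (Quotient.out x) • H
  have hinj : Function.Injective F := by
    intro x y hxy
    have hc : (Quotient.out x)⁻¹ * Quotient.out y ∈ H := by
      apply hN
      have h1 : MulAut.conj ((Quotient.out x)⁻¹ * Quotient.out y) • H
          = MulAut.conj (Quotient.out x)⁻¹ • (MulAut.conj (Quotient.out y) • H) := by
        rw [map_mul, mul_smul]
      rw [h1]
      change _ • F y = H
      rw [← hxy]
      change MulAut.conj (Quotient.out x)⁻¹ • (MulAut.conj (Quotient.out x) • H) = H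
      rw [← mul_smul, ← map_mul]
      simp
    have := QuotientGroup.eq.2 hc
    simpa using this
  have hr : (Set.range fun g : G => MulAut.conj g • H) = Set.range F := by
    ext L
    constructor
    · rintro ⟨g, rfl⟩
      refine ⟨(g : G ⧸ H), ?_⟩
      have hc : g⁻¹ * Quotient.out (g : G ⧸ H) ∈ H := QuotientGroup.eq.1 (by simp)
      change MulAut.conj (Quotient.out (g : G ⧸ H)) • H = MulAut.conj g • H
      have : Quotient.out (g : G ⧸ H) = g * (g⁻¹ * Quotient.out (g : G ⧸ H)) := by group
      rw [this, map_mul, mul_smul, cj_eq_of_mem hc]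
    · rintro ⟨x, rfl⟩
      exact ⟨Quotient.out x, rfl⟩
  rw [hr, ← Set.image_univ, Set.ncard_image_of_injective _ hinj, Set.ncard_univ]
  rfl

section Final

variable (hG : Nat.card G = 660)
    (ho10 : ∀ y t : G, Commute y t → orderOf t = 2 → orderOf y = 5 → False)
    (ho22 : ∀ y t : G, Commute y t → orderOf t = 2 → orderOf y = 11 → False)

include hG ho10 ho22 in
theorem norm_A5 {H : Subgroup G} (e : H ≃* alternatingGroup (Fin 5)) (n : G) (h : MulAut.conj n • H = H) : n ∈ H := by
  apply mem_of_four H e hG ho10 ho22 (Vv_le H e) (card_Vv H e)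
  intro w hw
  have : w ∈ MulAut.conj n • H := by rw [h]; exact Vv_le H e hw
  exact mem_cj.1 this

include hG ho10 ho22 in
/-- The final count. -/
theorem final_count {V H K : Subgroup G} (hV : Nat.card V = 4) (hVH : V ≤ H) (hVK : V ≤ K) (hne : H ≠ K)
    (eH : H ≃* alternatingGroup (Fin 5)) (eK : K ≃* alternatingGroup (Fin 5))
    (huniq : ∀ L : Subgroup G, Nonempty (L ≃* alternatingGroup (Fin 5)) → V ≤ L → L = H ∨ L = K) :
    Nat.card {H : Subgroup G // Nonempty (H ≃* alternatingGroup (Fin 5))} = 22 ∧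
    ∃ H K : Subgroup G, Nonempty (H ≃* alternatingGroup (Fin 5)) ∧ Nonempty (K ≃* alternatingGroup (Fin 5)) ∧
      (∀ g : G, MulAut.conj g • H ≠ K) ∧ ∀ L : Subgroup G, Nonempty (L ≃* alternatingGroup (Fin 5)) →
        ∃ g : G, MulAut.conj g • L = H ∨ MulAut.conj g • L = K := by
  classical
  haveI : Fact (Nat.Prime 2) := ⟨by norm_num⟩
  have hconj : ∀ L : Subgroup G, Nonempty (L ≃* alternatingGroup (Fin 5)) →
      ∃ g : G, MulAut.conj g • L = H ∨ MulAut.conj g • L = K := by
    rintro L ⟨e⟩
    have hk : ¬ 2 ^ (2 + 1) ∣ Nat.card (⊤ : Subgroup G) := by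
      rw [Subgroup.card_top, hG]
      norm_num
    obtain ⟨h, -, hh⟩ := exists_conj_of_card (p := 2) (k := 2) (H := ⊤) (A := Vv L e) (B := V) le_top le_top
      (card_Vv L e) hV hk
    refine ⟨h, huniq _ ⟨(Subgroup.equivSMul (MulAut.conj h) L).symm.trans e⟩ ?_⟩
    intro v hv
    rw [mem_cj]
    exact Vv_le L e ((hh v).1 hv)
  have hnc : ∀ g : G, MulAut.conj g • H ≠ K := by
    intro g hg
    have hgH : g ∈ H := by
      apply mem_of_four H eH hG ho10 ho22 hVH hV
      intro w hw
      have : w ∈ MulAut.conj g • H := by rw [hg]; exact hVK hw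
      exact mem_cj.1 this
    rw [cj_eq_of_mem hgH] at hg
    exact hne hg
  refine ⟨?_, H, K, ⟨eH⟩, ⟨eK⟩, hnc, hconj⟩
  set RH := Set.range fun g : G => MulAut.conj g • H with hRH
  set RK := Set.range fun g : G => MulAut.conj g • K with hRK
  have hcH : RH.ncard = 11 := by
    rw [hRH, range_ncard (norm_A5 hG ho10 ho22 eH)]
    exact index_eq H eH hG
  have hcK : RK.ncard = 11 := by
    rw [hRK, range_ncard (norm_A5 hG ho10 ho22 eK)]
    exact index_eq K eK hG
  have hdisj : Disjoint RH RK := by
    rw [Set.disjoint_left]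
    rintro _ ⟨g, rfl⟩ ⟨g', hg'⟩
    apply hnc (g'⁻¹ * g)
    rw [map_mul, mul_smul]
    have h1 : MulAut.conj g • H = MulAut.conj g' • K := hg'.symm
    rw [h1, ← mul_smul, ← map_mul]
    simp
  have hset : {L : Subgroup G | Nonempty (L ≃* alternatingGroup (Fin 5))} = RH ∪ RK := by
    ext L
    constructor
    · intro hL
      obtain ⟨g, hg | hg⟩ := hconj L hL
      · left
        refine ⟨g⁻¹, ?_⟩
        change MulAut.conj g⁻¹ • H = L
        rw [← hg, ← mul_smul, ← map_mul]
        simp
      · right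
        refine ⟨g⁻¹, ?_⟩
        change MulAut.conj g⁻¹ • K = L
        rw [← hg, ← mul_smul, ← map_mul]
        simp
    · rintro (⟨g, rfl⟩ | ⟨g, rfl⟩)
      · exact ⟨(Subgroup.equivSMul (MulAut.conj g) H).symm.trans eH⟩
      · exact ⟨(Subgroup.equivSMul (MulAut.conj g) K).symm.trans eK⟩
  have h1 : Nat.card {H : Subgroup G // Nonempty (H ≃* alternatingGroup (Fin 5))}
      = ({L : Subgroup G | Nonempty (L ≃* alternatingGroup (Fin 5))}).ncard :=
    Nat.card_coe_set_eq _
  rw [h1, hset, Set.ncard_union_eq hdisj (Set.toFinite _) (Set.toFinite _), hcH, hcK]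

end Final

end Cfsg.Agent.Lib.H14.L211
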