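/-
The `A₅` subgroups of `PSL₂(11)`: explicit quaternion computations.
-/
import Mathlib
import Cfsg.Agent.Lib.H14.L211b

set_option autoImplicit false
set_option linter.unusedVariables false
set_option linter.unusedSectionVars false
set_option linter.style.haveILetI false
set_option linter.unusedSimpArgs false

namespace Cfsg.Agent.Lib.H14.L211

open Cfsg.Agent.Lib.Classical Matrix
open scoped MatrixGroups Pointwise

section Gen

variable {F : Type*} [Field F] (S : QSplit F)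

theorem exists_coords (g : Pe F) : ∃ a b c d : F, a ^ 2 + b ^ 2 + c ^ 2 + d ^ 2 = 1 ∧ g = S.P a b c d := by
  obtain ⟨A, rfl⟩ := mkP_surj g
  have hh := S.hh
  have hxy := S.hxy
  set m := A.1 with hm
  set r := (m 0 1 + m 1 0) * S.h with hr
  set s := (m 0 0 - m 1 1) * S.h with hs
  let a := (m 0 0 + m 1 1) * S.h
  let b := (m 0 1 - m 1 0) * S.h
  let c := -(S.x * s + S.y * r)
  let d := S.x * r - S.y * s
  have hq : S.qm a b c d = m := by
    have e1 : c * S.x + d * S.y = s := by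
      simp only [c, d]
      linear_combination (-s) * hxy
    have e2 : c * S.y - d * S.x = r := by
      simp only [c, d]
      linear_combination (-r) * hxy
    ext i j
    fin_cases i <;> fin_cases j
    · change a + c * S.x + d * S.y = m 0 0
      simp only [a]
      rw [add_assoc, e1, hs]
      linear_combination (m 0 0) * hh
    · change b + c * S.y - d * S.x = m 0 1
      simp only [b]
      rw [add_sub_assoc, e2, hr]
      linear_combination (m 0 1) * hh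
    · change -b + c * S.y - d * S.x = m 1 0
      simp only [b]
      rw [add_sub_assoc, e2, hr]
      linear_combination (m 1 0) * hh
    · change a - c * S.x - d * S.y = m 1 1
      simp only [a]
      have : a - c * S.x - d * S.y = a - (c * S.x + d * S.y) := by ring
      simp only [a] at this
      rw [this, e1, hs]
      linear_combination (m 1 1) * hh
  have hn : a ^ 2 + b ^ 2 + c ^ 2 + d ^ 2 = 1 := by
    rw [← S.qm_det, hq]
    exact A.2
  refine ⟨a, b, c, d, hn, ?_⟩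
  rw [S.P_of hn]
  congr 1
  exact Subtype.ext hq.symm

/-- Chebyshev-like coordinates of powers. -/
def pA (a : F) : ℕ → F
  | 0 => 1
  | n + 1 => pA a n * a - pB' a n * (1 - a ^ 2)
where
  /-- Second coordinate. -/
  pB' (a : F) : ℕ → F
    | 0 => 0
    | n + 1 => pA a n + pB' a n * a

/-- The vector coefficient of a power. -/
abbrev pB (a : F) : ℕ → F := pA.pB' a

@[simp] theorem pA_zero (a : F) : pA a 0 = 1 := by simp [pA]
@[simp] theorem pB_zero (a : F) : pB a 0 = 0 := by simp [pB, pA.pB']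
theorem pA_succ (a : F) (n : ℕ) : pA a (n + 1) = pA a n * a - pB a n * (1 - a ^ 2) := by simp [pA, pB]
theorem pB_succ (a : F) (n : ℕ) : pB a (n + 1) = pA a n + pB a n * a := by simp [pB, pA.pB']

theorem pnorm (a : F) (n : ℕ) : pA a n ^ 2 + pB a n ^ 2 * (1 - a ^ 2) = 1 := by
  induction n with
  | zero => simp
  | succ n ih =>
    rw [pA_succ, pB_succ]
    linear_combination ih

theorem P_pow {a b c d : F} (hn : a ^ 2 + b ^ 2 + c ^ 2 + d ^ 2 = 1) (n : ℕ) :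
    S.P a b c d ^ n = S.P (pA a n) (pB a n * b) (pB a n * c) (pB a n * d) := by
  induction n with
  | zero =>
    simp only [pow_zero, pA_zero, pB_zero, zero_mul]
    exact S.P_one.symm
  | succ n ih =>
    rw [pow_succ, ih]
    have hs : b ^ 2 + c ^ 2 + d ^ 2 = 1 - a ^ 2 := by linear_combination hn
    refine S.P_mul ?_ hn ?_ ?_ ?_ ?_
    · have := pnorm a n
      rw [← hs] at this
      linear_combination this
    · rw [pA_succ, ← hs]; ring
    · rw [pB_succ]; ring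
    · rw [pB_succ]; ring
    · rw [pB_succ]; ring

theorem pB_zero_of_pow {a b c d : F} (hn : a ^ 2 + b ^ 2 + c ^ 2 + d ^ 2 = 1) (h0 : b ≠ 0 ∨ c ≠ 0 ∨ d ≠ 0) {n : ℕ}
    (h : S.P a b c d ^ n = 1) : pB a n = 0 := by
  rw [P_pow S hn] at h
  have hs : b ^ 2 + c ^ 2 + d ^ 2 = 1 - a ^ 2 := by linear_combination hn
  have hnn : pA a n ^ 2 + (pB a n * b) ^ 2 + (pB a n * c) ^ 2 + (pB a n * d) ^ 2 = 1 := by
    have := pnorm a n
    rw [← hs] at this
    linear_combination this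
  obtain ⟨h1, h2, h3⟩ := S.eq_zero_of_mem hnn h
  rcases h0 with h0 | h0 | h0
  · exact (mul_eq_zero.1 h1).resolve_right h0
  · exact (mul_eq_zero.1 h2).resolve_right h0
  · exact (mul_eq_zero.1 h3).resolve_right h0

theorem P_scalar {p q r s : F} (hn : p ^ 2 + q ^ 2 + r ^ 2 + s ^ 2 = 1) (h : q = 0 ∧ r = 0 ∧ s = 0) : S.P p q r s = 1 := by
  obtain ⟨rfl, rfl, rfl⟩ := h
  have h1 : p * p = 1 := by
    have : p ^ 2 = 1 := by simpa using hn
    rwa [pow_two] at this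
  rcases mul_self_eq_one_iff.1 h1 with rfl | rfl
  · exact S.P_one
  · have := S.P_neg 1 0 0 0
    simp only [neg_zero] at this
    rw [this, S.P_one]

theorem pB2 (a : F) : pB a 2 = 2 * a := by
  simp only [pB_succ, pA_succ, pA_zero, pB_zero]
  ring

theorem pB3 (a : F) : pB a 3 = 4 * a ^ 2 - 1 := by
  simp only [pB_succ, pA_succ, pA_zero, pB_zero]
  ring

theorem pB5 (a : F) : pB a 5 = 16 * a ^ 4 - 12 * a ^ 2 + 1 := by
  simp only [pB_succ, pA_succ, pA_zero, pB_zero]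
  ring

set_option maxRecDepth 100000 in
theorem a5_orders' : ∀ x : alternatingGroup (Fin 5), x ^ 2 = 1 ∨ x ^ 3 = 1 ∨ x ^ 5 = 1 := by decide +kernel

theorem orders_of_mem {G : Type*} [Group G] {L : Subgroup G} (e : L ≃* alternatingGroup (Fin 5)) {y : G} (hy : y ∈ L) :
    y ^ 2 = 1 ∨ y ^ 3 = 1 ∨ y ^ 5 = 1 := by
  have h := a5_orders' (e ⟨y, hy⟩)
  have key : ∀ n : ℕ, e ⟨y, hy⟩ ^ n = 1 → y ^ n = 1 := by
    intro n hn
    rw [← map_pow, map_eq_one_iff e e.injective] at hn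
    simpa using congrArg Subtype.val hn
  rcases h with h | h | h
  · exact Or.inl (key _ h)
  · exact Or.inr (Or.inl (key _ h))
  · exact Or.inr (Or.inr (key _ h))

theorem good_of_mem {L : Subgroup (Pe F)} (e : L ≃* alternatingGroup (Fin 5)) {p q r s : F}
    (hn : p ^ 2 + q ^ 2 + r ^ 2 + s ^ 2 = 1) (h0 : q ≠ 0 ∨ r ≠ 0 ∨ s ≠ 0) (hy : S.P p q r s ∈ L) :
    2 * p = 0 ∨ 4 * p ^ 2 - 1 = 0 ∨ 16 * p ^ 4 - 12 * p ^ 2 + 1 = 0 := by
  rcases orders_of_mem e hy with h | h | h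
  · left
    rw [← pB2]
    exact pB_zero_of_pow S hn h0 h
  · right; left
    rw [← pB3]
    exact pB_zero_of_pow S hn h0 h
  · right; right
    rw [← pB5]
    exact pB_zero_of_pow S hn h0 h

theorem test_mul {L : Subgroup (Pe F)} (E : L ≃* alternatingGroup (Fin 5)) {b c d e f g h : F}
    (hn : (0 : F) ^ 2 + b ^ 2 + c ^ 2 + d ^ 2 = 1) (hx : e ^ 2 + f ^ 2 + g ^ 2 + h ^ 2 = 1)
    (ht : S.P 0 b c d ∈ L) (hxL : S.P e f g h ∈ L) (hne : S.P 0 b c d * S.P e f g h ≠ 1) :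
    2 * (0 * e - b * f - c * g - d * h) = 0 ∨ 4 * (0 * e - b * f - c * g - d * h) ^ 2 - 1 = 0 ∨
      16 * (0 * e - b * f - c * g - d * h) ^ 4 - 12 * (0 * e - b * f - c * g - d * h) ^ 2 + 1 = 0 := by
  have hP := S.P_mul hn hx rfl rfl rfl rfl
  set p := 0 * e - b * f - c * g - d * h with hp
  set q := 0 * f + b * e + c * h - d * g with hq
  set r := 0 * g - b * h + c * e + d * f with hr
  set s := 0 * h + b * g - c * f + d * e with hs
  have hN : p ^ 2 + q ^ 2 + r ^ 2 + s ^ 2 = 1 := by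
    have h1 : p ^ 2 + q ^ 2 + r ^ 2 + s ^ 2 = ((0 : F) ^ 2 + b ^ 2 + c ^ 2 + d ^ 2) * (e ^ 2 + f ^ 2 + g ^ 2 + h ^ 2) := by
      rw [hp, hq, hr, hs]
      ring
    rw [h1, hn, hx, one_mul]
  apply good_of_mem S E hN
  · by_contra hall
    push Not at hall
    apply hne
    rw [hP]
    exact P_scalar S hN hall
  · rw [← hP]
    exact L.mul_mem ht hxL

theorem flip_i {b c d : F} (hn : (0 : F) ^ 2 + b ^ 2 + c ^ 2 + d ^ 2 = 1) :
    S.ia * S.P 0 b c d * S.ia = S.P 0 (-b) c d := by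
  have hn' : (-b) ^ 2 + (0 : F) ^ 2 + (-d) ^ 2 + c ^ 2 = 1 := by linear_combination hn
  rw [QSplit.ia, S.P_mul (p := -b) (q := 0) (r := -d) (s := c) (by norm_num) hn (by ring) (by ring) (by ring) (by ring),
    S.P_mul hn' (by norm_num) ?_ ?_ ?_ ?_]
  all_goals ring

theorem flip_j {b c d : F} (hn : (0 : F) ^ 2 + b ^ 2 + c ^ 2 + d ^ 2 = 1) :
    S.jb * S.P 0 b c d * S.jb = S.P 0 b (-c) d := by
  have hn' : (-c) ^ 2 + d ^ 2 + (0 : F) ^ 2 + (-b) ^ 2 = 1 := by linear_combination hn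
  rw [QSplit.jb, S.P_mul (p := -c) (q := d) (r := 0) (s := -b) (by norm_num) hn (by ring) (by ring) (by ring) (by ring),
    S.P_mul hn' (by norm_num) ?_ ?_ ?_ ?_]
  all_goals ring

theorem flip_k {b c d : F} (hn : (0 : F) ^ 2 + b ^ 2 + c ^ 2 + d ^ 2 = 1) :
    S.kk * S.P 0 b c d * S.kk = S.P 0 b c (-d) := by
  have hn' : (-d) ^ 2 + (-c) ^ 2 + b ^ 2 + (0 : F) ^ 2 = 1 := by linear_combination hn
  rw [QSplit.kk, S.P_mul (p := -d) (q := -c) (r := b) (s := 0) (by norm_num) hn (by ring) (by ring) (by ring) (by ring),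
    S.P_mul hn' (by norm_num) ?_ ?_ ?_ ?_]
  all_goals ring

theorem shift_om {b c d : F} (hn : (0 : F) ^ 2 + b ^ 2 + c ^ 2 + d ^ 2 = 1) :
    S.om * S.P 0 b c d * S.om2 = S.P 0 c d b := by
  have hh := S.hh
  have h2ne := S.two_ne
  have e2 : S.h = 2⁻¹ := by
    field_simp
    linear_combination hh
  rw [QSplit.om, QSplit.om2, S.P_mul S.norm_om hn rfl rfl rfl rfl]
  refine S.P_mul ?_ S.norm_om2 ?_ ?_ ?_ ?_
  · have h1 : ∀ a₀ a₁ a₂ a₃ : F, (a₀ * 0 - a₁ * b - a₂ * c - a₃ * d) ^ 2 + (a₀ * b + a₁ * 0 + a₂ * d - a₃ * c) ^ 2 +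
        (a₀ * c - a₁ * d + a₂ * 0 + a₃ * b) ^ 2 + (a₀ * d + a₁ * c - a₂ * b + a₃ * 0) ^ 2 =
        (a₀ ^ 2 + a₁ ^ 2 + a₂ ^ 2 + a₃ ^ 2) * ((0 : F) ^ 2 + b ^ 2 + c ^ 2 + d ^ 2) := by
      intros
      ring
    rw [h1, S.norm_om, hn, one_mul]
  all_goals
    rw [e2]
    field_simp
    ring

/-- Closure of a subgroup under sign changes. -/
theorem mem_signs {A : Subgroup (Pe F)} (hi : S.ia ∈ A) (hj : S.jb ∈ A) (hk : S.kk ∈ A) {b c d b' c' d' : F}
    (hn : (0 : F) ^ 2 + b ^ 2 + c ^ 2 + d ^ 2 = 1) (h : S.P 0 b c d ∈ A)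
    (hb : b' = b ∨ b' = -b) (hc : c' = c ∨ c' = -c) (hd : d' = d ∨ d' = -d) : S.P 0 b' c' d' ∈ A := by
  have h1 : S.P 0 b' c d ∈ A ∧ (0 : F) ^ 2 + b' ^ 2 + c ^ 2 + d ^ 2 = 1 := by
    rcases hb with rfl | rfl
    · exact ⟨h, hn⟩
    · refine ⟨?_, by linear_combination hn⟩
      rw [← flip_i S hn]
      exact A.mul_mem (A.mul_mem hi h) hi
  have h2 : S.P 0 b' c' d ∈ A ∧ (0 : F) ^ 2 + b' ^ 2 + c' ^ 2 + d ^ 2 = 1 := by
    rcases hc with rfl | rfl
    · exact h1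
    · refine ⟨?_, by linear_combination h1.2⟩
      rw [← flip_j S h1.2]
      exact A.mul_mem (A.mul_mem hj h1.1) hj
  rcases hd with rfl | rfl
  · exact h2.1
  · rw [← flip_k S h2.2]
    exact A.mul_mem (A.mul_mem hk h2.1) hk

/-- `V ⟨w⟩` normalises `V`. -/
theorem T_le_norm {G : Type*} [Group G] [Finite G] (D : A4Data G) : D.T ≤ Subgroup.normalizer (D.V : Set G) := by
  rintro x ⟨v, hv, k, rfl⟩
  apply Subgroup.mem_normalizer_fintype
  intro n hn
  have h1 := conj_pow_mem_of D.V D.w (fun _ hx => D.hwV hx) k n hn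
  have h2 : v * D.w ^ k * n * (v * D.w ^ k)⁻¹ = v * (D.w ^ k * n * (D.w ^ k)⁻¹) * v⁻¹ := by group
  rw [h2]
  exact D.V.mul_mem (D.V.mul_mem hv h1) (D.V.inv_mem hv)

end Gen

section Abs

variable {G : Type*} [Group G] [Finite G]

theorem eq_of_T_t {T L H : Subgroup G} {t : G} (hT : Nat.card T = 12) (hTL : T ≤ L) (hTH : T ≤ H) (hL : Nat.card L = 60)
    (hH : Nat.card H = 60) (htL : t ∈ L) (htH : t ∈ H) (htT : t ∉ T) : L = H := by
  have hle : T ≤ L ⊓ H := le_inf hTL hTH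
  have h1 : 12 ∣ Nat.card ↥(L ⊓ H) := by
    rw [← hT]
    exact Subgroup.card_dvd_of_le hle
  have h2 : Nat.card ↥(L ⊓ H) ∣ 60 := by
    rw [← hL]
    exact Subgroup.card_dvd_of_le inf_le_left
  have h3 : Nat.card ↥(L ⊓ H) ≠ 12 := by
    intro h
    have := Subgroup.eq_of_le_of_card_ge hle (by rw [h, hT])
    rw [this] at htT
    exact htT ⟨htL, htH⟩
  have h4 : Nat.card ↥(L ⊓ H) = 60 := by
    obtain ⟨c, hc⟩ := h1
    rw [hc] at h2 h3 ⊢
    have h5 : c ∣ 5 := Nat.dvd_of_mul_dvd_mul_left (by norm_num : 0 < 12) (by simpa using h2)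
    have h6 := (Nat.dvd_prime (by norm_num : Nat.Prime 5)).1 h5
    rcases h6 with rfl | rfl
    · simp at h3
    · rfl
  have e1 : L ⊓ H = L := Subgroup.eq_of_le_of_card_ge inf_le_left (by rw [h4, hL])
  have e2 : L ⊓ H = H := Subgroup.eq_of_le_of_card_ge inf_le_right (by rw [h4, hH])
  rw [← e1]
  exact e2

set_option maxRecDepth 100000 in
theorem card_invol_A5 : (Finset.univ.filter (fun x : alternatingGroup (Fin 5) => x ^ 2 = 1 ∧ x ≠ 1)).card = 15 := by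
  decide +kernel

theorem exists_invol {T L : Subgroup G} (e : L ≃* alternatingGroup (Fin 5)) (hT : Nat.card T = 12) :
    ∃ t ∈ L, t ^ 2 = 1 ∧ t ≠ 1 ∧ t ∉ T := by
  classical
  by_contra hno
  push Not at hno
  let I := {x : alternatingGroup (Fin 5) // x ^ 2 = 1 ∧ x ≠ 1}
  have hmem : ∀ x : I, (e.symm x.1 : G) ∈ T := by
    rintro ⟨x, h1, h2⟩
    apply hno _ (e.symm x).2
    · have : e.symm x ^ 2 = 1 := by rw [← map_pow, h1, map_one]
      simpa using congrArg Subtype.val this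
    · intro h
      apply h2
      have : e.symm x = 1 := Subtype.ext h
      simpa using this
  let f : I → T := fun x => ⟨_, hmem x⟩
  have hf : Function.Injective f := by
    intro x y hxy
    have h1 : (e.symm x.1 : G) = e.symm y.1 := congrArg (fun z : T => (z : G)) hxy
    have h2 : e.symm x.1 = e.symm y.1 := Subtype.ext h1
    exact Subtype.ext (e.symm.injective h2)
  have h := Nat.card_le_card_of_injective f hf
  have hI : Nat.card I = 15 := by
    rw [Nat.subtype_card (Finset.univ.filter (fun x : alternatingGroup (Fin 5) => x ^ 2 = 1 ∧ x ≠ 1)) (by simp), card_invol_A5]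
  rw [hI, hT] at h
  omega

end Abs

section Z11

/-- The prime eleven. -/
instance fact_eleven : Fact (Nat.Prime 11) := ⟨by norm_num⟩

/-- Quaternion coordinates over `𝔽₁₁`. -/
def S11 : QSplit (ZMod 11) := ⟨1, 3, 6, by decide, by decide⟩

/-- The orders allowed in `A₅`: the real parts. -/
def Gd (a : ZMod 11) : Prop := a = 0 ∨ a = 2 ∨ a = 4 ∨ a = 5 ∨ a = 6 ∨ a = 7 ∨ a = 9

instance : DecidablePred Gd := fun a => by unfold Gd; infer_instance

theorem Gd_of : ∀ a : ZMod 11, (2 * a = 0 ∨ 4 * a ^ 2 - 1 = 0 ∨ 16 * a ^ 4 - 12 * a ^ 2 + 1 = 0) → Gd a := by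
  decide +kernel

set_option synthInstance.maxSize 2000 in
set_option synthInstance.maxHeartbeats 0 in
/-- The enumeration of the pure quaternions passing all the tests. -/
theorem classify : ∀ b c d : ZMod 11, (0 : ZMod 11) ^ 2 + b ^ 2 + c ^ 2 + d ^ 2 = 1 →
    Gd (0 * 0 - b * 1 - c * 0 - d * 0) → Gd (0 * 0 - b * 0 - c * 1 - d * 0) → Gd (0 * 0 - b * 0 - c * 0 - d * 1) →
    Gd (0 * 6 - b * 6 - c * 6 - d * 6) → Gd (0 * 6 - b * 6 - c * 6 - d * (-6)) →
    Gd (0 * 6 - b * 6 - c * (-6) - d * 6) → Gd (0 * 6 - b * (-6) - c * 6 - d * 6) →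
    (((b = 6 ∨ b = -6) ∧ (c = 4 ∨ c = -4) ∧ (d = 2 ∨ d = -2)) ∨
     ((b = 4 ∨ b = -4) ∧ (c = 2 ∨ c = -2) ∧ (d = 6 ∨ d = -6)) ∨
     ((b = 2 ∨ b = -2) ∧ (c = 6 ∨ c = -6) ∧ (d = 4 ∨ d = -4))) ∨
    (((b = 6 ∨ b = -6) ∧ (c = 2 ∨ c = -2) ∧ (d = 4 ∨ d = -4)) ∨
     ((b = 2 ∨ b = -2) ∧ (c = 4 ∨ c = -4) ∧ (d = 6 ∨ d = -6)) ∨
     ((b = 4 ∨ b = -4) ∧ (c = 6 ∨ c = -6) ∧ (d = 2 ∨ d = -2))) := by
  decide +kernel

end Z11

section Orb

variable {F : Type*} [Field F] (S : QSplit F)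

theorem orb_mem {A : Subgroup (Pe F)} (hi : S.ia ∈ A) (hj : S.jb ∈ A) (hk : S.kk ∈ A) (hw : S.om ∈ A) (hw2 : S.om2 ∈ A)
    {u v w b c d : F} (hn : (0 : F) ^ 2 + u ^ 2 + v ^ 2 + w ^ 2 = 1) (h : S.P 0 u v w ∈ A)
    (hcase : ((b = u ∨ b = -u) ∧ (c = v ∨ c = -v) ∧ (d = w ∨ d = -w)) ∨
      ((b = v ∨ b = -v) ∧ (c = w ∨ c = -w) ∧ (d = u ∨ d = -u)) ∨
      ((b = w ∨ b = -w) ∧ (c = u ∨ c = -u) ∧ (d = v ∨ d = -v))) : S.P 0 b c d ∈ A := by
  have hn2 : (0 : F) ^ 2 + v ^ 2 + w ^ 2 + u ^ 2 = 1 := by linear_combination hn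
  have hn3 : (0 : F) ^ 2 + w ^ 2 + u ^ 2 + v ^ 2 = 1 := by linear_combination hn
  have h2 : S.P 0 v w u ∈ A := by
    rw [← shift_om S hn]
    exact A.mul_mem (A.mul_mem hw h) hw2
  have h3 : S.P 0 w u v ∈ A := by
    rw [← shift_om S hn2]
    exact A.mul_mem (A.mul_mem hw h2) hw2
  rcases hcase with ⟨h1, h2', h3'⟩ | ⟨h1, h2', h3'⟩ | ⟨h1, h2', h3'⟩
  · exact mem_signs S hi hj hk hn h h1 h2' h3'
  · exact mem_signs S hi hj hk hn2 h2 h1 h2' h3'
  · exact mem_signs S hi hj hk hn3 h3 h1 h2' h3'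

end Orb

section Main11

theorem hF11 : Fintype.card (ZMod 11) = 11 := ZMod.card 11

theorem t4_eq : S11.tt 4 * S11.kk = S11.P 0 6 4 2 := by
  rw [QSplit.tt, QSplit.kk]
  exact S11.P_mul (by decide) (by decide) (by decide) (by decide) (by decide) (by decide)

theorem t8_eq : S11.tt 8 * S11.kk = S11.P 0 6 2 4 := by
  rw [QSplit.tt, QSplit.kk]
  exact S11.P_mul (by decide) (by decide) (by decide) (by decide) (by decide) (by decide)

theorem phi4 : (4 : ZMod 11) ^ 2 = 4 + 1 := by decide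
theorem phi8 : (8 : ZMod 11) ^ 2 = 8 + 1 := by decide

theorem bprop11 : ∃ V H K : Subgroup (Pe (ZMod 11)), Nat.card V = 4 ∧ V ≤ H ∧ V ≤ K ∧ H ≠ K ∧
    Nonempty (H ≃* alternatingGroup (Fin 5)) ∧ Nonempty (K ≃* alternatingGroup (Fin 5)) ∧
    ∀ L : Subgroup (Pe (ZMod 11)), Nonempty (L ≃* alternatingGroup (Fin 5)) → V ≤ L → L = H ∨ L = K := by
  have hc := card_pe hF11
  have ho10 := pe_ho10 hF11
  have ho22 := pe_ho22 hF11
  let S := S11
  let D₄ := S.a5 4 phi4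
  let D₈ := S.a5 8 phi8
  have hT4 : S.a4.T ≤ D₄.I := D₄.T_le_I
  have hT8 : S.a4.T ≤ D₈.I := D₈.T_le_I
  have hcV : Nat.card S.a4.V = 4 := S.a4.card_V
  have hcT : Nat.card S.a4.T = 12 := S.a4.card_T
  have hVT : S.a4.V ≤ S.a4.T := S.a4.V_le_T
  obtain ⟨e₄⟩ := D₄.I_equiv
  obtain ⟨e₈⟩ := D₈.I_equiv
  have ht4 : S.P 0 6 4 2 ∈ D₄.I := by
    rw [show S.P 0 6 4 2 = S.tt 4 * S.kk from t4_eq.symm]
    exact D₄.I.mul_mem D₄.t_mem_I (hT4 S.k_mem)
  have ht8 : S.P 0 6 2 4 ∈ D₈.I := by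
    rw [show S.P 0 6 2 4 = S.tt 8 * S.kk from t8_eq.symm]
    exact D₈.I.mul_mem D₈.t_mem_I (hT8 S.k_mem)
  refine ⟨S.a4.V, D₄.I, D₈.I, hcV, hVT.trans hT4, hVT.trans hT8, ?_, ⟨e₄⟩, ⟨e₈⟩, ?_⟩
  · intro he
    have ht8' : S.P 0 6 2 4 ∈ D₄.I := by
      rw [he]
      exact ht8
    have hne : S.P 0 6 4 2 * S.P 0 6 2 4 ≠ 1 := by
      rw [S.P_mul (p := 3) (q := 1) (r := 10) (s := 10) (by decide) (by decide) (by decide) (by decide) (by decide) (by decide)]
      exact S.P_ne_one (by decide) (Or.inl (by decide))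
    have := test_mul S e₄ (by decide) (by decide) ht4 ht8' hne
    revert this
    decide
  · rintro L ⟨e⟩ hVL
    have hN : Subgroup.normalizer (S.a4.V : Set (Pe (ZMod 11))) ≤ L := by
      intro n hn
      apply mem_of_four L e hc ho10 ho22 hVL hcV
      intro w hw
      apply hVL
      have := (Subgroup.mem_normalizer_iff.1 (Subgroup.inv_mem _ hn) w).1 hw
      simpa using this
    have hTL : S.a4.T ≤ L := (T_le_norm S.a4).trans hN
    obtain ⟨t, htL, ht2, ht1, htT⟩ := exists_invol (T := S.a4.T) e hcT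
    obtain ⟨a, b, c, d, hn, rfl⟩ := exists_coords S t
    have h0 : b ≠ 0 ∨ c ≠ 0 ∨ d ≠ 0 := by
      by_contra hall
      push Not at hall
      exact ht1 (P_scalar S hn hall)
    have ha : a = 0 := by
      have h1 := pB_zero_of_pow S hn h0 ht2
      rw [pB2] at h1
      exact (mul_eq_zero.1 h1).resolve_left S.two_ne
    subst ha
    have key : ∀ e' f g h' : ZMod 11, e' ^ 2 + f ^ 2 + g ^ 2 + h' ^ 2 = 1 → S.P e' f g h' ∈ S.a4.T →
        Gd (0 * e' - b * f - c * g - d * h') := by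
      intro e' f g h' hx hxT
      apply Gd_of
      refine test_mul S e hn hx htL (hTL hxT) ?_
      intro h1
      apply htT
      rw [eq_inv_of_mul_eq_one_left h1]
      exact S.a4.T.inv_mem hxT
    have hcl := classify b c d hn (key 0 1 0 0 (by decide) S.i_mem) (key 0 0 1 0 (by decide) S.j_mem)
      (key 0 0 0 1 (by decide) S.k_mem) (key 6 6 6 6 (by decide) S.mem_y7) (key 6 6 6 (-6) (by decide) S.mem_y9)
      (key 6 6 (-6) 6 (by decide) (by
        have e1 := S.P_neg (-S.h) (-S.h) S.h (-S.h)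
        simp only [neg_neg] at e1
        have e2 : S.P 6 6 (-6) 6 = S.P (-S.h) (-S.h) S.h (-S.h) := e1
        rw [e2]
        exact S.mem_y4))
      (key 6 (-6) 6 6 (by decide) S.mem_y3)
    have hcL : Nat.card L = 60 := card_H L e
    rcases hcl with h | h
    · left
      refine eq_of_T_t hcT hTL hT4 hcL D₄.card_I htL ?_ htT
      exact orb_mem S (hT4 S.i_mem) (hT4 S.j_mem) (hT4 S.k_mem) (hT4 S.w_mem) (hT4 S.w2_mem) (by decide) ht4 h
    · right
      refine eq_of_T_t hcT hTL hT8 hcL D₈.card_I htL ?_ htT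
      exact orb_mem S (hT8 S.i_mem) (hT8 S.j_mem) (hT8 S.k_mem) (hT8 S.w_mem) (hT8 S.w2_mem) (by decide) ht8 h

/-- Transport along a field isomorphism. -/
theorem psl_equiv {F : Type*} [Field F] [Fintype F] (hF : Fintype.card F = 11) :
    Nonempty (Pe F ≃* Pe (ZMod 11)) := by
  let ι : F ≃+* ZMod 11 := (ZMod.ringEquivOfPrime F (by norm_num) hF).symm
  let f : Pe F →* Pe (ZMod 11) := pslEmbed (ι : F →+* ZMod 11)
  have hinj : Function.Injective f := pslEmbed_injective _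
  have hbij : Function.Bijective f := by
    refine (Function.Injective.bijective_of_nat_card_le hinj ?_)
    rw [card_pe hF11, card_pe hF]
  exact ⟨MulEquiv.ofBijective f hbij⟩

theorem bprop_transport {G G' : Type*} [Group G] [Group G'] (f : G ≃* G')
    (h : ∃ V H K : Subgroup G', Nat.card V = 4 ∧ V ≤ H ∧ V ≤ K ∧ H ≠ K ∧
      Nonempty (H ≃* alternatingGroup (Fin 5)) ∧ Nonempty (K ≃* alternatingGroup (Fin 5)) ∧
      ∀ L : Subgroup G', Nonempty (L ≃* alternatingGroup (Fin 5)) → V ≤ L → L = H ∨ L = K) :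
    ∃ V H K : Subgroup G, Nat.card V = 4 ∧ V ≤ H ∧ V ≤ K ∧ H ≠ K ∧
      Nonempty (H ≃* alternatingGroup (Fin 5)) ∧ Nonempty (K ≃* alternatingGroup (Fin 5)) ∧
      ∀ L : Subgroup G, Nonempty (L ≃* alternatingGroup (Fin 5)) → V ≤ L → L = H ∨ L = K := by
  obtain ⟨V, H, K, hV, hVH, hVK, hne, ⟨eH⟩, ⟨eK⟩, hu⟩ := h
  let m : Subgroup G' → Subgroup G := fun X => X.map f.symm.toMonoidHom
  have hm : ∀ X : Subgroup G', (m X).map f.toMonoidHom = X := by
    intro X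
    ext x
    constructor
    · rintro ⟨_, ⟨y, hy, rfl⟩, rfl⟩
      simpa using hy
    · intro hx
      exact ⟨f.symm x, ⟨x, hx, rfl⟩, by simp⟩
  have hm' : ∀ X : Subgroup G, m (X.map f.toMonoidHom) = X := by
    intro X
    ext x
    constructor
    · rintro ⟨_, ⟨y, hy, rfl⟩, rfl⟩
      simpa using hy
    · intro hx
      exact ⟨f x, ⟨x, hx, rfl⟩, by simp⟩
  have hmono : ∀ {X Y : Subgroup G'}, X ≤ Y → m X ≤ m Y := fun h => Subgroup.map_mono h
  have he : ∀ X : Subgroup G', (m X) ≃* X := fun X => (f.symm.subgroupMap X).symm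
  refine ⟨m V, m H, m K, ?_, hmono hVH, hmono hVK, ?_, ⟨(he H).trans eH⟩, ⟨(he K).trans eK⟩, ?_⟩
  · rw [Nat.card_congr (he V).toEquiv, hV]
  · intro h
    apply hne
    rw [← hm H, ← hm K, h]
  · rintro L ⟨e⟩ hVL
    have h1 := hu (L.map f.toMonoidHom) ⟨(f.subgroupMap L).symm.trans e⟩ (by
      rw [← hm V]
      exact Subgroup.map_mono hVL)
    rcases h1 with h1 | h1
    · left
      rw [← hm' L, h1]
    · right
      rw [← hm' L, h1]

/-- The statement. -/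
theorem final_F {F : Type*} [Field F] [Fintype F] (hF : Fintype.card F = 11) :
    Nat.card {H : Subgroup (Pe F) // Nonempty (H ≃* alternatingGroup (Fin 5))} = 22 ∧
    ∃ H K : Subgroup (Pe F), Nonempty (H ≃* alternatingGroup (Fin 5)) ∧ Nonempty (K ≃* alternatingGroup (Fin 5)) ∧
      (∀ g : Pe F, MulAut.conj g • H ≠ K) ∧ ∀ L : Subgroup (Pe F), Nonempty (L ≃* alternatingGroup (Fin 5)) →
        ∃ g : Pe F, MulAut.conj g • L = H ∨ MulAut.conj g • L = K := by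
  obtain ⟨f⟩ := psl_equiv hF
  obtain ⟨V, H, K, hV, hVH, hVK, hne, ⟨eH⟩, ⟨eK⟩, hu⟩ := bprop_transport f bprop11
  exact final_count (card_pe hF) (pe_ho10 hF) (pe_ho22 hF) hV hVH hVK hne eH eK hu

end Main11

end Cfsg.Agent.Lib.H14.L211
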