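/-
The (B,N)-pair of `SL_n(F)` and `PSL_n(F)`.
-/
import Mathlib
import Cfsg.Agent.Lib.Known.BNSt

set_option autoImplicit false
set_option linter.unusedVariables false
set_option linter.unusedSectionVars false
set_option linter.style.haveILetI false
set_option linter.unusedSimpArgs false

namespace Cfsg.Agent.Lib.H14.SLBN

open Cfsg Cfsg.Agent.Lib.BN Matrix Equiv

/-! ### Quotients of (B,N)-pairs -/

section Quot

variable {G G' : Type*} [Group G] [Group G'] (P : BNPair G) (π : G →* G') (hπ : Function.Surjective π)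
  (hk : π.ker ≤ P.B ⊓ P.N)

include hk in
theorem mem_map_B {x : G} : π x ∈ P.B.map π ↔ x ∈ P.B := by
  constructor
  · rintro ⟨b, hb, e⟩
    have h1 : b⁻¹ * x ∈ π.ker := by
      rw [MonoidHom.mem_ker, map_mul, map_inv, e]
      simp
    have h2 := (hk h1).1
    have : x = b * (b⁻¹ * x) := by group
    rw [this]
    exact P.B.mul_mem hb h2
  · intro h
    exact ⟨x, h, rfl⟩

include hk in
theorem mem_map_N {x : G} : π x ∈ P.N.map π ↔ x ∈ P.N := by
  constructor
  · rintro ⟨b, hb, e⟩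
    have h1 : b⁻¹ * x ∈ π.ker := by
      rw [MonoidHom.mem_ker, map_mul, map_inv, e]
      simp
    have h2 := (hk h1).2
    have : x = b * (b⁻¹ * x) := by group
    rw [this]
    exact P.N.mul_mem hb h2
  · intro h
    exact ⟨x, h, rfl⟩

/-- The quotient (B,N)-pair. -/
def qBN : BNPair G' where
  B := P.B.map π
  N := P.N.map π
  S := π '' P.S
  sup_eq_top := by
    rw [← Subgroup.map_sup, P.sup_eq_top, Subgroup.map_top_of_surjective _ hπ]
  conj_mem := by
    rintro _ ⟨n, hn, rfl⟩ t ⟨⟨b, hb, rfl⟩, ht⟩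
    have hbN : b ∈ P.N := (mem_map_N P π hk).1 ht
    exact ⟨n * b * n⁻¹, P.conj_mem n hn b ⟨hb, hbN⟩, by simp⟩
  subset := by
    rintro _ ⟨s, hs, rfl⟩
    exact ⟨s, P.subset hs, rfl⟩
  sq_mem := by
    rintro _ ⟨s, hs, rfl⟩
    exact ⟨s * s, P.sq_mem s hs, by simp⟩
  inj := by
    rintro _ ⟨s, hs, rfl⟩ _ ⟨s', hs', rfl⟩ h
    have h1 : s⁻¹ * s' ∈ P.B := by
      apply (mem_map_B P π hk).1
      rw [map_mul, map_inv]
      exact h
    rw [P.inj s hs s' hs' h1]
  closure_sup := by
    have h1 : P.B.map π ⊓ P.N.map π = (P.B ⊓ P.N).map π := by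
      ext x
      constructor
      · rintro ⟨⟨b, hb, rfl⟩, hb'⟩
        exact ⟨b, ⟨hb, (mem_map_N P π hk).1 hb'⟩, rfl⟩
      · rintro ⟨b, ⟨hb, hb'⟩, rfl⟩
        exact ⟨⟨b, hb, rfl⟩, ⟨b, hb', rfl⟩⟩
    rw [h1, ← MonoidHom.map_closure, ← Subgroup.map_sup, P.closure_sup]
  mul_mem_union := by
    rintro _ ⟨s, hs, rfl⟩ _ ⟨n, hn, rfl⟩ _ ⟨b, hb, rfl⟩
    have h := P.mul_mem_union s hs n hn b hb
    rcases h with h | h
    · left
      rw [DoubleCoset.mem_doubleCoset] at h ⊢
      obtain ⟨b₁, hb₁, b₂, hb₂, e⟩ := h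
      refine ⟨π b₁, ⟨b₁, hb₁, rfl⟩, π b₂, ⟨b₂, hb₂, rfl⟩, ?_⟩
      rw [← map_mul, ← map_mul, e]
      simp
    · right
      rw [DoubleCoset.mem_doubleCoset] at h ⊢
      obtain ⟨b₁, hb₁, b₂, hb₂, e⟩ := h
      refine ⟨π b₁, ⟨b₁, hb₁, rfl⟩, π b₂, ⟨b₂, hb₂, rfl⟩, ?_⟩
      rw [← map_mul, ← map_mul, e]
      simp
  conj_ne := by
    rintro _ ⟨s, hs, rfl⟩ h
    apply P.conj_ne s hs
    ext x
    constructor
    · rintro ⟨b, hb, rfl⟩
      apply (mem_map_B P π hk).1
      have : π (s * b * s) ∈ ((fun b : G' => π s * b * π s) '' (P.B.map π : Set G')) :=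
        ⟨π b, ⟨b, hb, rfl⟩, by simp⟩
      rw [h] at this
      exact this
    · intro hx
      have hmem : π x ∈ ((fun b : G' => π s * b * π s) '' (P.B.map π : Set G')) := by
        rw [h]
        exact ⟨x, hx, rfl⟩
      obtain ⟨_, ⟨b, hb, rfl⟩, e⟩ := hmem
      refine ⟨s⁻¹ * x * s⁻¹, ?_, by group⟩
      apply (mem_map_B P π hk).1
      have e' : π (s⁻¹ * x * s⁻¹) = π b := by
        rw [map_mul, map_mul, map_inv, ← e]
        group
      rw [e']
      exact ⟨b, hb, rfl⟩

end Quot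

/-! ### Monomial matrices -/

section Mon

variable {n : ℕ} {F : Type*} [Field F]

/-- `SL_n`. -/
abbrev SLn (n : ℕ) (F : Type*) [Field F] := Matrix.SpecialLinearGroup (Fin n) F

/-- `M` is monomial with permutation `σ`. -/
def MonW (M : Matrix (Fin n) (Fin n) F) (σ : Perm (Fin n)) : Prop := ∀ r c, M r c ≠ 0 ↔ c = σ r

theorem MonW.ne {M : Matrix (Fin n) (Fin n) F} {σ : Perm (Fin n)} (h : MonW M σ) (r : Fin n) : M r (σ r) ≠ 0 :=
  (h r _).2 rfl

theorem MonW.eq_zero {M : Matrix (Fin n) (Fin n) F} {σ : Perm (Fin n)} (h : MonW M σ) {r c : Fin n} (hc : c ≠ σ r) :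
    M r c = 0 := by
  by_contra h'
  exact hc ((h r c).1 h')

theorem mon_mul_apply {M M' : Matrix (Fin n) (Fin n) F} {σ : Perm (Fin n)} (h : MonW M σ) (r c : Fin n) :
    (M * M') r c = M r (σ r) * M' (σ r) c := by
  rw [Matrix.mul_apply, Finset.sum_eq_single (σ r)]
  · intro k _ hk
    rw [h.eq_zero hk, zero_mul]
  · simp

theorem mul_mon_apply {M M' : Matrix (Fin n) (Fin n) F} {τ : Perm (Fin n)} (h : MonW M' τ) (r c : Fin n) :
    (M * M') r c = M r (τ.symm c) * M' (τ.symm c) c := by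
  rw [Matrix.mul_apply, Finset.sum_eq_single (τ.symm c)]
  · intro k _ hk
    have : c ≠ τ k := fun e => hk (by rw [e]; simp)
    rw [h.eq_zero this, mul_zero]
  · simp

theorem MonW.mul {M M' : Matrix (Fin n) (Fin n) F} {σ τ : Perm (Fin n)} (h : MonW M σ) (h' : MonW M' τ) :
    MonW (M * M') (τ * σ) := by
  intro r c
  rw [mon_mul_apply h]
  constructor
  · intro h1
    exact (h' (σ r) c).1 (right_ne_zero_of_mul h1)
  · intro h1
    exact mul_ne_zero (h.ne r) ((h' (σ r) c).2 h1)

theorem MonW.inv {g : SLn n F} {σ : Perm (Fin n)} (h : MonW g.1 σ) : MonW (g⁻¹ : SLn n F).1 σ⁻¹ := by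
  intro r c
  have e : (g.1 * (g⁻¹ : SLn n F).1) = 1 := by
    have : (g * g⁻¹).1 = 1 := by simp
    exact this
  have e1 := congrFun (congrFun e (σ⁻¹ r)) c
  rw [mon_mul_apply h] at e1
  have hs : σ (σ⁻¹ r) = r := by simp
  rw [hs] at e1
  have h0 : g.1 (σ⁻¹ r) r ≠ 0 := by
    have := h.ne (σ⁻¹ r)
    rwa [hs] at this
  constructor
  · intro hne
    by_contra hc
    have : (1 : Matrix (Fin n) (Fin n) F) (σ⁻¹ r) c = 0 := Matrix.one_apply_ne (fun e => hc e.symm)
    rw [this] at e1
    exact (mul_ne_zero h0 hne) e1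
  · rintro rfl
    intro h1
    rw [h1, mul_zero, Matrix.one_apply_eq] at e1
    exact zero_ne_one e1

theorem perm_eq_one_of_le {σ : Perm (Fin n)} (h : ∀ r, r ≤ σ r) : σ = 1 := by
  have h1 : ∑ r : Fin n, (σ r).val = ∑ r : Fin n, r.val := Equiv.sum_comp σ (fun i => i.val)
  have h2 := (Finset.sum_eq_sum_iff_of_le (s := Finset.univ) (f := fun r : Fin n => r.val) (g := fun r : Fin n => (σ r).val)
    (fun r _ => Fin.le_def.1 (h r))).1 h1.symm
  ext r
  exact (h2 r (Finset.mem_univ _)).symm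

/-- The upper triangular subgroup. -/
def BB (n : ℕ) (F : Type*) [Field F] : Subgroup (SLn n F) where
  carrier := {g | g.1.BlockTriangular id}
  mul_mem' := fun {a b} ha hb => by
    change (a.1 * b.1).BlockTriangular id
    exact Matrix.BlockTriangular.mul ha hb
  one_mem' := by
    change (1 : Matrix (Fin n) (Fin n) F).BlockTriangular id
    exact Matrix.blockTriangular_one
  inv_mem' := fun {a} ha => by
    change ((a⁻¹ : SLn n F).1).BlockTriangular id
    have hu : IsUnit a.1.det := by rw [a.2]; exact isUnit_one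
    letI := Matrix.invertibleOfIsUnitDet a.1 hu
    have e : (a⁻¹ : SLn n F).1 = a.1⁻¹ := by
      apply Matrix.inv_eq_left_inv ?_ |>.symm
      have : (a⁻¹ * a).1 = 1 := by simp
      exact this
    rw [e]
    exact Matrix.blockTriangular_inv_of_blockTriangular ha

theorem mem_BB {g : SLn n F} : g ∈ BB n F ↔ ∀ r c : Fin n, c < r → g.1 r c = 0 := by
  constructor
  · intro h r c hrc
    exact h hrc
  · intro h r c hrc
    exact h r c hrc

/-- The monomial subgroup. -/
def NN (n : ℕ) (F : Type*) [Field F] : Subgroup (SLn n F) where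
  carrier := {g | ∃ σ, MonW g.1 σ}
  mul_mem' := by
    rintro a b ⟨σ, hσ⟩ ⟨τ, hτ⟩
    exact ⟨τ * σ, hσ.mul hτ⟩
  one_mem' := by
    refine ⟨1, fun r c => ?_⟩
    change (1 : Matrix (Fin n) (Fin n) F) r c ≠ 0 ↔ c = r
    by_cases h : r = c
    · subst h
      simp
    · rw [Matrix.one_apply_ne h]
      simp [Ne.symm h]
  inv_mem' := by
    rintro a ⟨σ, hσ⟩
    exact ⟨σ⁻¹, hσ.inv⟩

theorem mem_NN {g : SLn n F} : g ∈ NN n F ↔ ∃ σ, MonW g.1 σ := Iff.rfl

theorem perm_eq_one {g : SLn n F} (hg : g ∈ BB n F) {σ : Perm (Fin n)} (h : MonW g.1 σ) : σ = 1 := by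
  apply perm_eq_one_of_le
  intro r
  by_contra hlt
  push Not at hlt
  exact h.ne r (mem_BB.1 hg r _ hlt)

theorem mem_BB_of_one {g : SLn n F} (h : MonW g.1 1) : g ∈ BB n F := by
  rw [mem_BB]
  intro r c hrc
  exact h.eq_zero (by simpa using hrc.ne)

/-- The main conjugation lemma. -/
theorem conj_upper {y M : SLn n F} {σ : Perm (Fin n)} (hy : MonW y.1 σ)
    (hM : ∀ k l, k ≠ l → M.1 k l ≠ 0 → σ k < σ l) : y⁻¹ * M * y ∈ BB n F := by
  rw [mem_BB]
  intro r c hrc
  change ((y⁻¹ : SLn n F).1 * M.1 * y.1) r c = 0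
  rw [mul_mon_apply hy, mon_mul_apply hy.inv]
  have h1 : M.1 (σ⁻¹ r) (σ.symm c) = 0 := by
    by_contra hne
    have hkl : σ⁻¹ r ≠ σ.symm c := by
      intro e
      have : r = c := by
        have := congrArg σ e
        simpa using this
      exact hrc.ne this.symm
    have := hM _ _ hkl hne
    have e1 : σ (σ⁻¹ r) = r := by simp
    have e2 : σ (σ.symm c) = c := by simp
    rw [e1, e2] at this
    exact absurd this (not_lt.2 hrc.le)
  rw [h1]
  simp

theorem upper_diag_ne {g : SLn n F} (hg : g ∈ BB n F) (r : Fin n) : g.1 r r ≠ 0 := by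
  have h1 : g.1.det = ∏ i, g.1 i i := Matrix.det_of_isUpperTriangular hg
  rw [g.2] at h1
  intro h0
  have : ∏ i, g.1 i i = 0 := Finset.prod_eq_zero (Finset.mem_univ r) h0
  rw [this] at h1
  exact one_ne_zero h1

end Mon

/-! ### Explicit monomial elements -/

section Explicit

variable {n : ℕ} {F : Type*} [Field F]

/-- A monomial matrix with all entries `1` except at `z`. -/
def monM (σ : Perm (Fin n)) (z : Fin n) : Matrix (Fin n) (Fin n) F :=
  fun r c => if c = σ r then (if r = z then (((Equiv.Perm.sign σ : ℤˣ) : ℤ) : F) else 1) else 0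

theorem sign_ne (σ : Perm (Fin n)) : (((Equiv.Perm.sign σ : ℤˣ) : ℤ) : F) ≠ 0 := by
  rcases Int.units_eq_one_or (Equiv.Perm.sign σ) with h | h <;> rw [h] <;> simp

theorem sign_sq (σ : Perm (Fin n)) : (((Equiv.Perm.sign σ : ℤˣ) : ℤ) : F) * (((Equiv.Perm.sign σ : ℤˣ) : ℤ) : F) = 1 := by
  rcases Int.units_eq_one_or (Equiv.Perm.sign σ) with h | h <;> rw [h] <;> simp

theorem monM_mon (σ : Perm (Fin n)) (z : Fin n) : MonW (monM (F := F) σ z) σ := by
  intro r c
  unfold monM
  by_cases h : c = σ r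
  · simp only [h, if_true]
    constructor
    · intro _
      trivial
    · intro _
      split_ifs
      · exact sign_ne σ
      · exact one_ne_zero
  · simp [h]

theorem monM_det (σ : Perm (Fin n)) (z : Fin n) : (monM (F := F) σ z).det = 1 := by
  have e : monM (F := F) σ z = Matrix.diagonal (fun r => if r = z then (((Equiv.Perm.sign σ : ℤˣ) : ℤ) : F) else 1) * (σ.permMatrix F) := by
    ext r c
    rw [Matrix.diagonal_mul]
    simp only [monM, Equiv.Perm.permMatrix, PEquiv.toMatrix_apply, Equiv.toPEquiv_apply, Option.mem_def, Option.some.injEq]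
    by_cases h : c = σ r
    · simp [h]
    · have h' : ¬ σ r = c := fun e => h e.symm
      simp [h, h']
  rw [e, Matrix.det_mul, Matrix.det_diagonal, Matrix.det_permutation, Finset.prod_ite_eq' Finset.univ z (fun _ => (((Equiv.Perm.sign σ : ℤˣ) : ℤ) : F))]
  simp only [Finset.mem_univ, if_true]
  have := sign_sq (F := F) σ
  push_cast at this ⊢
  exact this

/-- The element of `SL_n`. -/
def monSL (σ : Perm (Fin n)) (z : Fin n) : SLn n F := ⟨monM σ z, monM_det σ z⟩

theorem monSL_mon (σ : Perm (Fin n)) (z : Fin n) : MonW (monSL (F := F) σ z).1 σ := monM_mon σ z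

/-- A transvection in `SL_n`. -/
def tr (a b : Fin n) (hab : a ≠ b) (v : F) : SLn n F := ⟨Matrix.transvection a b v, Matrix.det_transvection_of_ne a b hab v⟩

theorem tr_mul (a b : Fin n) (hab : a ≠ b) (v w : F) : tr a b hab v * tr a b hab w = tr a b hab (v + w) := by
  apply Subtype.ext
  exact Matrix.transvection_mul_transvection_same a b hab v w

theorem tr_zero (a b : Fin n) (hab : a ≠ b) : tr a b hab (0 : F) = 1 := by
  apply Subtype.ext
  exact Matrix.transvection_zero a b

theorem tr_apply (a b : Fin n) (hab : a ≠ b) (v : F) (r c : Fin n) :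
    (tr a b hab v).1 r c = (1 : Matrix (Fin n) (Fin n) F) r c + if r = a ∧ c = b then v else 0 := by
  change Matrix.transvection a b v r c = _
  rw [Matrix.transvection, Matrix.add_apply, Matrix.single_apply]
  split_ifs with h1 h2 h2
  · rfl
  · exact absurd ⟨h1.1.symm, h1.2.symm⟩ h2
  · exact absurd ⟨h2.1.symm, h2.2.symm⟩ h1
  · rfl

theorem tr_mem_BB {a b : Fin n} (hab : a < b) (v : F) : tr a b hab.ne v ∈ BB n F := by
  rw [mem_BB]
  intro r c hrc
  rw [tr_apply, Matrix.one_apply_ne (by exact hrc.ne'), zero_add]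
  rw [if_neg]
  rintro ⟨rfl, rfl⟩
  exact absurd hab (not_lt.2 hrc.le)

theorem tr_off {a b : Fin n} (hab : a ≠ b) {v : F} {k l : Fin n} (hkl : k ≠ l) (h : (tr a b hab v).1 k l ≠ 0) : k = a ∧ l = b := by
  rw [tr_apply, Matrix.one_apply_ne hkl, zero_add] at h
  by_contra hc
  rw [if_neg hc] at h
  exact h rfl

theorem tr_left_apply {a b : Fin n} (hab : a ≠ b) (v : F) (M : Matrix (Fin n) (Fin n) F) (r c : Fin n) :
    ((tr a b hab v).1 * M) r c = M r c + if r = a then v * M b c else 0 := by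
  change (Matrix.transvection a b v * M) r c = _
  by_cases h : r = a
  · subst h
    rw [Matrix.transvection_mul_apply_same, if_pos rfl]
  · rw [Matrix.transvection_mul_apply_of_ne a b r c h, if_neg h, add_zero]

theorem tr_right_apply {a b : Fin n} (hab : a ≠ b) (v : F) (M : Matrix (Fin n) (Fin n) F) (r c : Fin n) :
    (M * (tr a b hab v).1) r c = M r c + if c = b then v * M r a else 0 := by
  change (M * Matrix.transvection a b v) r c = _
  by_cases h : c = b
  · subst h
    rw [Matrix.mul_transvection_apply_same, if_pos rfl]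
  · rw [Matrix.mul_transvection_apply_of_ne a b r c h, if_neg h, add_zero]

end Explicit

/-! ### The (B,N)-pair -/

section Pair

variable {m : ℕ} {F : Type*} [Field F]

/-- Adjacent transposition. -/
def sg (i : Fin m) : Perm (Fin (m + 1)) := swap i.castSucc i.succ

theorem i01_ne (i : Fin m) : i.castSucc ≠ i.succ := (Fin.castSucc_lt_succ (i := i)).ne

/-- The distinguished generators. -/
def si (i : Fin m) : SLn (m + 1) F := monSL (sg i) i.succ

theorem si_mon (i : Fin m) : MonW (si (F := F) i).1 (sg i) := monSL_mon _ _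

theorem sg_inv (i : Fin m) : (sg i)⁻¹ = sg i := Equiv.swap_inv _ _

theorem sg_symm (i : Fin m) : (sg i).symm = sg i := Equiv.symm_swap _ _

theorem sg_sq (i : Fin m) : sg i * sg i = 1 := Equiv.swap_mul_self _ _

theorem sg_a (i : Fin m) : sg i i.castSucc = i.succ := Equiv.swap_apply_left _ _

theorem sg_b (i : Fin m) : sg i i.succ = i.castSucc := Equiv.swap_apply_right _ _

theorem sign_sg (i : Fin m) : (((Equiv.Perm.sign (sg i) : ℤˣ) : ℤ) : F) = -1 := by
  rw [sg, Equiv.Perm.sign_swap (i01_ne i)]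
  simp

theorem si_a (i : Fin m) (l : Fin (m + 1)) : (si (F := F) i).1 i.castSucc l = if l = i.succ then 1 else 0 := by
  change monM (sg i) i.succ i.castSucc l = _
  simp only [monM, sg_a, if_neg (i01_ne i)]

theorem si_b (i : Fin m) (l : Fin (m + 1)) : (si (F := F) i).1 i.succ l = if l = i.castSucc then -1 else 0 := by
  change monM (sg i) i.succ i.succ l = _
  simp only [monM, sg_b, if_true, sign_sg]

theorem si_o (i : Fin m) {k : Fin (m + 1)} (h0 : k ≠ i.castSucc) (h1 : k ≠ i.succ) (l : Fin (m + 1)) :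
    (si (F := F) i).1 k l = if l = k then 1 else 0 := by
  change monM (sg i) i.succ k l = _
  have : sg i k = k := Equiv.swap_apply_of_ne_of_ne h0 h1
  simp only [monM, this, if_neg h1]

/-- The off-diagonal support of `x(v⁻¹) s x(v)`. -/
theorem R_off (i : Fin m) {v : F} (hv : v ≠ 0) {k l : Fin (m + 1)} (hkl : k ≠ l)
    (h : (tr i.castSucc i.succ (i01_ne i) v⁻¹ * si i * tr i.castSucc i.succ (i01_ne i) v).1 k l ≠ 0) :
    k = i.succ ∧ l = i.castSucc := by
  have e : (tr i.castSucc i.succ (i01_ne i) v⁻¹ * si i * tr i.castSucc i.succ (i01_ne i) v).1 k l =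
      ((tr i.castSucc i.succ (i01_ne i) v⁻¹).1 * ((si i).1 * (tr i.castSucc i.succ (i01_ne i) v).1) : Matrix (Fin (m + 1)) (Fin (m + 1)) F) k l := by
    change ((tr i.castSucc i.succ (i01_ne i) v⁻¹).1 * (si i).1 * (tr i.castSucc i.succ (i01_ne i) v).1 : Matrix (Fin (m + 1)) (Fin (m + 1)) F) k l = _
    rw [Matrix.mul_assoc]
  rw [e, tr_left_apply] at h
  have hT : ∀ k' l', ((si (F := F) i).1 * (tr i.castSucc i.succ (i01_ne i) v).1) k' l' =
      (si i).1 k' l' + if l' = i.succ then v * (si i).1 k' i.castSucc else 0 := fun k' l' => tr_right_apply _ _ _ _ _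
  simp only [hT] at h
  by_cases hka : k = i.castSucc
  · subst hka
    exfalso
    apply h
    rw [if_pos rfl, si_a, si_a, si_b, si_b, if_neg (i01_ne i), if_pos rfl]
    by_cases hlb : l = i.succ
    · subst hlb
      simp only [if_true, if_neg (i01_ne i).symm]
      field_simp
      ring
    · have hla : l ≠ i.castSucc := fun e => hkl e.symm
      simp only [if_neg hlb, if_neg hla]
      simp
  · by_cases hkb : k = i.succ
    · subst hkb
      refine ⟨rfl, ?_⟩
      rw [if_neg hka, si_b, si_b, if_pos rfl] at h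
      by_contra hla
      have hlk : ¬ l = i.succ := fun e => hkl e.symm
      rw [if_neg hla, if_neg hlk] at h
      simp at h
    · exfalso
      apply h
      have hlk : ¬ l = k := fun e => hkl e.symm
      have hak : ¬ i.castSucc = k := fun e => hka e.symm
      rw [if_neg hka, si_o i hka hkb, si_o i hka hkb, if_neg hlk, if_neg hak]
      simp

theorem swap_order (i : Fin m) {k l : Fin (m + 1)} (hkl : k < l) (hne : ¬ (k = i.castSucc ∧ l = i.succ)) :
    sg i k < sg i l := by
  rw [sg, Equiv.swap_apply_def, Equiv.swap_apply_def]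
  have hv : ∀ x y : Fin (m + 1), x = y ↔ x.val = y.val := fun x y => Fin.ext_iff
  have hkl' : k.val < l.val := hkl
  have h0 : (i.castSucc : Fin (m + 1)).val = i.val := rfl
  have h1 : (i.succ : Fin (m + 1)).val = i.val + 1 := rfl
  simp only [hv, h0, h1] at hne ⊢
  split_ifs <;> simp only [Fin.lt_def, h0, h1] <;> omega

/-- `BB ⊔ NN` contains the transvections. -/
theorem tr_mem_sup {n : ℕ} (a b : Fin n) (hab : a ≠ b) (v : F) : tr a b hab v ∈ BB n F ⊔ NN n F := by
  rcases lt_or_gt_of_ne hab with h | h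
  · exact Subgroup.mem_sup_left (tr_mem_BB h v)
  · let y : SLn n F := monSL (swap a b) a
    have hy : MonW y.1 (swap a b) := monSL_mon _ _
    have h1 : y⁻¹ * tr a b hab v * y ∈ BB n F := by
      apply conj_upper hy
      intro k l hkl hne
      obtain ⟨rfl, rfl⟩ := tr_off hab hkl hne
      simpa using h
    have hyN : y ∈ BB n F ⊔ NN n F := Subgroup.mem_sup_right ⟨_, hy⟩
    have e : tr a b hab v = y * (y⁻¹ * tr a b hab v * y) * y⁻¹ := by group
    rw [e]
    exact Subgroup.mul_mem _ (Subgroup.mul_mem _ hyN (Subgroup.mem_sup_left h1)) (Subgroup.inv_mem _ hyN)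

theorem list_mem_sup {n : ℕ} (L : List (Matrix.TransvectionStruct (Fin n) F)) :
    ∃ h ∈ BB n F ⊔ NN n F, h.1 = (L.map Matrix.TransvectionStruct.toMatrix).prod := by
  induction L with
  | nil => exact ⟨1, Subgroup.one_mem _, rfl⟩
  | cons t L ih =>
    obtain ⟨h, hh, e⟩ := ih
    refine ⟨tr t.i t.j t.hij t.c * h, Subgroup.mul_mem _ (tr_mem_sup _ _ _ _) hh, ?_⟩
    rw [List.map_cons, List.prod_cons, ← e]
    rfl

theorem sup_top {n : ℕ} : BB n F ⊔ NN n F = ⊤ := by
  rw [eq_top_iff]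
  intro g _
  obtain ⟨L, L', D, e⟩ := Matrix.Pivot.exists_list_transvec_mul_diagonal_mul_list_transvec g.1
  obtain ⟨h₁, hh₁, e₁⟩ := list_mem_sup (n := n) (F := F) L
  obtain ⟨h₂, hh₂, e₂⟩ := list_mem_sup (n := n) (F := F) L'
  rw [← e₁, ← e₂] at e
  have hd : (h₁⁻¹ * g * h₂⁻¹).1 = Matrix.diagonal D := by
    change (h₁⁻¹).1 * g.1 * (h₂⁻¹).1 = _
    rw [e]
    have i1 : (h₁⁻¹).1 * h₁.1 = 1 := by
      have : (h₁⁻¹ * h₁).1 = 1 := by simp
      exact this
    have i2 : h₂.1 * (h₂⁻¹).1 = 1 := by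
      have : (h₂ * h₂⁻¹).1 = 1 := by simp
      exact this
    calc (h₁⁻¹).1 * (h₁.1 * Matrix.diagonal D * h₂.1) * (h₂⁻¹).1
        = ((h₁⁻¹).1 * h₁.1) * Matrix.diagonal D * (h₂.1 * (h₂⁻¹).1) := by simp only [Matrix.mul_assoc]
      _ = _ := by rw [i1, i2, Matrix.one_mul, Matrix.mul_one]
  have hdB : h₁⁻¹ * g * h₂⁻¹ ∈ BB n F := by
    rw [mem_BB]
    intro r c hrc
    rw [hd, Matrix.diagonal_apply_ne _ hrc.ne']
  have : g = h₁ * (h₁⁻¹ * g * h₂⁻¹) * h₂ := by group
  rw [this]
  exact Subgroup.mul_mem _ (Subgroup.mul_mem _ hh₁ (Subgroup.mem_sup_left hdB)) hh₂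

theorem closure_eq : Subgroup.closure (Set.range (si (m := m) (F := F))) ⊔ (BB (m + 1) F ⊓ NN (m + 1) F) = NN (m + 1) F := by
  apply le_antisymm
  · refine sup_le ?_ inf_le_right
    rw [Subgroup.closure_le]
    rintro _ ⟨i, rfl⟩
    exact ⟨_, si_mon i⟩
  · set H := Subgroup.closure (Set.range (si (m := m) (F := F))) ⊔ (BB (m + 1) F ⊓ NN (m + 1) F) with hH
    have hone : ∀ g : SLn (m + 1) F, MonW g.1 1 → g ∈ H := fun g hg =>
      Subgroup.mem_sup_right ⟨mem_BB_of_one hg, ⟨1, hg⟩⟩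
    have key : ∀ σ : Perm (Fin (m + 1)), σ ∈ Submonoid.closure (Set.range fun i : Fin m => swap i.castSucc i.succ) →
        ∀ g : SLn (m + 1) F, MonW g.1 σ → g ∈ H := by
      intro σ hσ
      induction hσ using Submonoid.closure_induction with
      | mem σ hσ =>
        obtain ⟨i, rfl⟩ := hσ
        intro g hg
        have h1 : MonW ((si (F := F) i)⁻¹ * g).1 (swap i.castSucc i.succ * (sg i)⁻¹) := (si_mon (F := F) i).inv.mul hg
        rw [sg_inv] at h1
        have e : swap i.castSucc i.succ * sg i = 1 := sg_sq i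
        rw [e] at h1
        have h2 := hone _ h1
        have h3 : si (F := F) i ∈ H := Subgroup.mem_sup_left (Subgroup.subset_closure ⟨i, rfl⟩)
        have : g = si i * ((si i)⁻¹ * g) := by group
        rw [this]
        exact Subgroup.mul_mem _ h3 h2
      | one =>
        exact hone
      | mul σ τ _ _ h1 h2 =>
        intro g hg
        let z : Fin (m + 1) := 0
        let y : SLn (m + 1) F := monSL τ z
        have hy : MonW y.1 τ := monSL_mon _ _
        have h3 : MonW (y⁻¹ * g).1 (σ * τ * τ⁻¹) := hy.inv.mul hg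
        have e : σ * τ * τ⁻¹ = σ := by group
        rw [e] at h3
        have : g = y * (y⁻¹ * g) := by group
        rw [this]
        exact Subgroup.mul_mem _ (h2 _ hy) (h1 _ h3)
    rintro g ⟨σ, hσ⟩
    refine key σ ?_ g hσ
    rw [Equiv.Perm.mclosure_swap_castSucc_succ]
    trivial

theorem dc_union (i : Fin m) {y b : SLn (m + 1) F} (hy : y ∈ NN (m + 1) F) (hb : b ∈ BB (m + 1) F) :
    (∃ b₁ ∈ BB (m + 1) F, ∃ b₂ ∈ BB (m + 1) F, si i * b * y = b₁ * (si i * y) * b₂) ∨
    (∃ b₁ ∈ BB (m + 1) F, ∃ b₂ ∈ BB (m + 1) F, si i * b * y = b₁ * y * b₂) := by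
  obtain ⟨σ, hσ⟩ := hy
  have hne := i01_ne i
  have hlt : i.castSucc < i.succ := Fin.castSucc_lt_succ
  set a := i.castSucc with ha
  set c := i.succ with hc
  have hd := upper_diag_ne hb a
  set v := b.1 a c / b.1 a a with hv
  set b' := b * tr a c hne (-v) with hb'
  have hb'B : b' ∈ BB (m + 1) F := Subgroup.mul_mem _ hb (tr_mem_BB hlt _)
  have hb'0 : b'.1 a c = 0 := by
    change (b.1 * (tr a c hne (-v)).1) a c = 0
    rw [tr_right_apply, if_pos rfl, hv]
    field_simp
    ring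
  have hbb : b = b' * tr a c hne v := by
    rw [hb', mul_assoc, tr_mul, neg_add_cancel, tr_zero, mul_one]
  have hconj : si i * b' * (si i)⁻¹ ∈ BB (m + 1) F := by
    have h1 := conj_upper (y := (si (F := F) i)⁻¹) (M := b') (si_mon i).inv (by
      intro k l hkl hnz
      rw [sg_inv]
      have hlt' : k < l := by
        by_contra hge
        push Not at hge
        have hlk : l < k := lt_of_le_of_ne hge (Ne.symm hkl)
        exact hnz (mem_BB.1 hb'B k l hlk)
      apply swap_order i hlt'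
      rintro ⟨rfl, rfl⟩
      exact hnz hb'0)
    simpa using h1
  have hmain : si i * b * y = (si i * b' * (si i)⁻¹) * (si i * tr a c hne v * y) := by
    rw [hbb]
    group
  rw [hmain]
  by_cases hv0 : v = 0
  · left
    refine ⟨_, hconj, 1, Subgroup.one_mem _, ?_⟩
    rw [hv0, tr_zero]
    group
  by_cases hlt2 : σ a < σ c
  · left
    have hu : y⁻¹ * tr a c hne v * y ∈ BB (m + 1) F := by
      apply conj_upper hσ
      intro k l hkl hnz
      obtain ⟨rfl, rfl⟩ := tr_off hne hkl hnz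
      exact hlt2
    refine ⟨_, hconj, _, hu, ?_⟩
    group
  · right
    have hlt3 : σ c < σ a := by
      have hne2 : σ c ≠ σ a := fun e => hne (σ.injective e).symm
      exact lt_of_le_of_ne (not_lt.1 hlt2) hne2
    have hu : y⁻¹ * (tr a c hne v⁻¹ * si i * tr a c hne v) * y ∈ BB (m + 1) F := by
      apply conj_upper hσ
      intro k l hkl hnz
      obtain ⟨rfl, rfl⟩ := R_off i hv0 hkl hnz
      exact hlt3
    refine ⟨_, Subgroup.mul_mem _ hconj (tr_mem_BB hlt (-v⁻¹)), _, hu, ?_⟩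
    have e1 : tr a c hne (-v⁻¹) * tr a c hne (v⁻¹) = 1 := by
      rw [tr_mul, neg_add_cancel, tr_zero]
    have e2 : si i * tr a c hne v * y = tr a c hne (-v⁻¹) * (tr a c hne v⁻¹ * si i * tr a c hne v) * y := by
      simp only [← mul_assoc]
      rw [e1, one_mul]
    rw [e2]
    group

theorem sB_ne (i : Fin m) : (fun b : SLn (m + 1) F => si i * b * si i) '' (BB (m + 1) F : Set (SLn (m + 1) F)) ≠
    (BB (m + 1) F : Set (SLn (m + 1) F)) := by
  intro h
  have hlt : i.castSucc < i.succ := Fin.castSucc_lt_succ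
  have h1 : si i * tr i.castSucc i.succ (i01_ne i) (1 : F) * si i ∈ BB (m + 1) F := by
    have : si i * tr i.castSucc i.succ (i01_ne i) (1 : F) * si i ∈
        ((fun b : SLn (m + 1) F => si i * b * si i) '' (BB (m + 1) F : Set (SLn (m + 1) F))) :=
      ⟨_, tr_mem_BB hlt _, rfl⟩
    rw [h] at this
    exact this
  have h2 := mem_BB.1 h1 i.succ i.castSucc hlt
  change ((si i).1 * (tr i.castSucc i.succ (i01_ne i) (1 : F)).1 * (si i).1 : Matrix (Fin (m + 1)) (Fin (m + 1)) F) i.succ i.castSucc = 0 at h2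
  rw [mul_mon_apply (si_mon i), mon_mul_apply (si_mon i), sg_symm, sg_b, sg_a, tr_apply, if_pos ⟨rfl, rfl⟩,
    Matrix.one_apply_ne (i01_ne i), si_b, if_pos rfl] at h2
  simp at h2

/-- The (B,N)-pair of `SL_{m+1}`. -/
def slBN (m : ℕ) (F : Type*) [Field F] : BNPair (SLn (m + 1) F) where
  B := BB (m + 1) F
  N := NN (m + 1) F
  S := Set.range si
  sup_eq_top := sup_top
  conj_mem := by
    rintro y hy t ⟨htB, ⟨τ, hτ⟩⟩
    obtain rfl := perm_eq_one htB hτ
    obtain ⟨σ, hσ⟩ := hy
    have := conj_upper (y := y⁻¹) (M := t) hσ.inv (by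
      intro k l hkl hnz
      exact absurd ((hτ k l).1 hnz) (by simpa using hkl.symm))
    simpa using this
  subset := by
    rintro _ ⟨i, rfl⟩
    exact ⟨_, si_mon i⟩
  sq_mem := by
    rintro _ ⟨i, rfl⟩
    apply mem_BB_of_one
    have := (si_mon (F := F) i).mul (si_mon i)
    rwa [sg_sq] at this
  inj := by
    rintro _ ⟨i, rfl⟩ _ ⟨j, rfl⟩ h
    have h1 : MonW ((si (F := F) i)⁻¹ * si j).1 (sg j * (sg i)⁻¹) := (si_mon i).inv.mul (si_mon j)
    have h2 := perm_eq_one h h1
    have h3 : sg j = sg i := by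
      have : sg j * (sg i)⁻¹ * sg i = sg i := by rw [h2, one_mul]
      simpa using this
    have h4 : sg j i.castSucc = i.succ := by rw [h3, sg_a]
    have h5 : i = j := by
      rw [sg, Equiv.swap_apply_def] at h4
      have h6 : i.val = j.val := by
        split_ifs at h4 with h7 h8
        · have := congrArg Fin.val h7
          simpa using this
        · have e1 := congrArg Fin.val h8
          have e2 := congrArg Fin.val h4
          simp at e1 e2
          omega
        · have e2 := congrArg Fin.val h4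
          simp at e2
      exact Fin.ext h6
    rw [h5]
  closure_sup := closure_eq
  mul_mem_union := by
    rintro _ ⟨i, rfl⟩ y hy b hb
    rcases dc_union i hy hb with ⟨b₁, hb₁, b₂, hb₂, e⟩ | ⟨b₁, hb₁, b₂, hb₂, e⟩
    · left
      rw [DoubleCoset.mem_doubleCoset]
      exact ⟨b₁, hb₁, b₂, hb₂, e⟩
    · right
      rw [DoubleCoset.mem_doubleCoset]
      exact ⟨b₁, hb₁, b₂, hb₂, e⟩
  conj_ne := by
    rintro _ ⟨i, rfl⟩
    exact sB_ne i

end Pair

end Cfsg.Agent.Lib.H14.SLBN
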