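/-
Monomial (B,N)-pairs of matrix groups and their Steinberg characters.
-/
import Mathlib
import Cfsg.Agent.Lib.H14.SLBN
import Cfsg.Agent.Lib.Known.BNStFix
import Cfsg.Agent.Lib.Char.DefectZero

set_option autoImplicit false
set_option linter.unusedVariables false
set_option linter.unusedSectionVars false
set_option linter.style.haveILetI false
set_option linter.unusedSimpArgs false

namespace Cfsg.Agent.Lib.H14.MonBN

open Cfsg Cfsg.Agent.Lib.BN Cfsg.Agent.Lib.Known.BNSt Equiv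

section Mon

variable {I : Type*} [Fintype I] [DecidableEq I] {F : Type*} [Field F]

/-- `M` is monomial with permutation `σ`. -/
def MW (M : Matrix I I F) (σ : Perm I) : Prop := ∀ r c, M r c ≠ 0 ↔ c = σ r

theorem MW.ne {M : Matrix I I F} {σ : Perm I} (h : MW M σ) (r : I) : M r (σ r) ≠ 0 :=
  (h r _).2 rfl

theorem MW.eq_zero {M : Matrix I I F} {σ : Perm I} (h : MW M σ) {r c : I} (hc : c ≠ σ r) :
    M r c = 0 := by
  by_contra h'
  exact hc ((h r c).1 h')

theorem mon_mul_apply {M M' : Matrix I I F} {σ : Perm I} (h : MW M σ) (r c : I) :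
    (M * M') r c = M r (σ r) * M' (σ r) c := by
  rw [Matrix.mul_apply, Finset.sum_eq_single (σ r)]
  · intro k _ hk
    rw [h.eq_zero hk, zero_mul]
  · simp

theorem mul_mon_apply {M M' : Matrix I I F} {τ : Perm I} (h : MW M' τ) (r c : I) :
    (M * M') r c = M r (τ.symm c) * M' (τ.symm c) c := by
  rw [Matrix.mul_apply, Finset.sum_eq_single (τ.symm c)]
  · intro k _ hk
    have : c ≠ τ k := fun e => hk (by rw [e]; simp)
    rw [h.eq_zero this, mul_zero]
  · simp

theorem MW.mul {M M' : Matrix I I F} {σ τ : Perm I} (h : MW M σ) (h' : MW M' τ) :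
    MW (M * M') (τ * σ) := by
  intro r c
  rw [mon_mul_apply h]
  constructor
  · intro h1
    exact (h' (σ r) c).1 (right_ne_zero_of_mul h1)
  · intro h1
    exact mul_ne_zero (h.ne r) ((h' (σ r) c).2 h1)

variable {Γ : Type*} [Group Γ] (ρ : Γ →* Matrix I I F)

theorem rho_mul_inv (g : Γ) : ρ g * ρ g⁻¹ = 1 := by rw [← map_mul]; simp

theorem rho_inv_mul (g : Γ) : ρ g⁻¹ * ρ g = 1 := by rw [← map_mul]; simp

variable {ρ}

theorem MW.inv {g : Γ} {σ : Perm I} (h : MW (ρ g) σ) : MW (ρ g⁻¹) σ⁻¹ := by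
  intro r c
  have e := rho_mul_inv ρ g
  have e1 := congrFun (congrFun e (σ⁻¹ r)) c
  rw [mon_mul_apply h] at e1
  have hs : σ (σ⁻¹ r) = r := by simp
  rw [hs] at e1
  have h0 : ρ g (σ⁻¹ r) r ≠ 0 := by
    have := h.ne (σ⁻¹ r)
    rwa [hs] at this
  constructor
  · intro hne
    by_contra hc
    have : (1 : Matrix I I F) (σ⁻¹ r) c = 0 := Matrix.one_apply_ne (fun e => hc e.symm)
    rw [this] at e1
    exact (mul_ne_zero h0 hne) e1
  · rintro rfl
    intro h1
    rw [h1, mul_zero, Matrix.one_apply_eq] at e1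
    exact zero_ne_one e1

variable (ρ) (pos : I → ℕ)

/-- The upper triangular subgroup. -/
def upB : Subgroup Γ where
  carrier := {g | ∀ r c, pos c < pos r → ρ g r c = 0}
  mul_mem' := by
    intro a b ha hb r c h
    rw [map_mul, Matrix.mul_apply]
    apply Finset.sum_eq_zero
    intro k _
    by_cases hk : pos k < pos r
    · rw [ha r k hk, zero_mul]
    · rw [hb k c (by omega), mul_zero]
  one_mem' := by
    intro r c h
    rw [map_one, Matrix.one_apply_ne]
    rintro rfl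
    exact lt_irrefl _ h
  inv_mem' := by
    intro g hg r c h
    have hb : (ρ g).BlockTriangular pos := fun i j hij => hg i j hij
    have hdet : IsUnit (ρ g).det := by
      have := congrArg Matrix.det (rho_mul_inv ρ g)
      rw [Matrix.det_mul, Matrix.det_one] at this
      exact IsUnit.of_mul_eq_one _ this
    letI : Invertible (ρ g) := Matrix.invertibleOfIsUnitDet _ hdet
    have e : ρ g⁻¹ = (ρ g)⁻¹ := (Matrix.inv_eq_right_inv (rho_mul_inv ρ g)).symm
    rw [e]
    exact Matrix.blockTriangular_inv_of_blockTriangular hb h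

/-- The monomial subgroup. -/
def monN : Subgroup Γ where
  carrier := {g | ∃ σ, MW (ρ g) σ}
  mul_mem' := by
    rintro a b ⟨σ, hσ⟩ ⟨τ, hτ⟩
    refine ⟨τ * σ, ?_⟩
    rw [map_mul]
    exact hσ.mul hτ
  one_mem' := by
    refine ⟨1, fun r c => ?_⟩
    rw [map_one]
    by_cases h : r = c
    · subst h
      simp
    · rw [Matrix.one_apply_ne h]
      simp [Ne.symm h]
  inv_mem' := by
    rintro a ⟨σ, hσ⟩
    exact ⟨σ⁻¹, hσ.inv⟩

variable {ρ pos}

theorem mem_upB {g : Γ} : g ∈ upB ρ pos ↔ ∀ r c, pos c < pos r → ρ g r c = 0 := Iff.rfl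

theorem perm_eq_one (hpos : Function.Injective pos) {g : Γ} (hg : g ∈ upB ρ pos) {σ : Perm I} (h : MW (ρ g) σ) : σ = 1 := by
  have hle : ∀ r, pos r ≤ pos (σ r) := by
    intro r
    by_contra hlt
    push Not at hlt
    exact h.ne r (hg r _ hlt)
  have h1 : ∑ r : I, pos (σ r) = ∑ r : I, pos r := Equiv.sum_comp σ pos
  have h2 := (Finset.sum_eq_sum_iff_of_le (s := Finset.univ) (f := pos) (g := fun r => pos (σ r))
    (fun r _ => hle r)).1 h1.symm
  ext r
  exact (hpos (h2 r (Finset.mem_univ _))).symm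

theorem mem_upB_of_one (hpos : Function.Injective pos) {g : Γ} (h : MW (ρ g) 1) : g ∈ upB ρ pos := by
  intro r c hrc
  apply h.eq_zero
  intro e
  rw [Perm.one_apply] at e
  rw [e] at hrc
  exact lt_irrefl _ hrc

/-- The main conjugation lemma. -/
theorem conj_upper {y M : Γ} {σ : Perm I} (hy : MW (ρ y) σ)
    (hM : ∀ k l, k ≠ l → ρ M k l ≠ 0 → pos (σ k) < pos (σ l)) : y⁻¹ * M * y ∈ upB ρ pos := by
  intro r c hrc
  rw [map_mul, map_mul, mul_mon_apply hy, mon_mul_apply hy.inv]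
  have h1 : ρ M (σ⁻¹ r) (σ.symm c) = 0 := by
    by_contra hne
    have hkl : σ⁻¹ r ≠ σ.symm c := by
      intro e
      have : r = c := by
        have := congrArg σ e
        simpa using this
      rw [this] at hrc
      exact lt_irrefl _ hrc
    have := hM _ _ hkl hne
    have e1 : σ (σ⁻¹ r) = r := by simp
    have e2 : σ (σ.symm c) = c := by simp
    rw [e1, e2] at this
    omega
  rw [h1]
  simp

theorem diag_ne (hpos : Function.Injective pos) {g : Γ} (hg : g ∈ upB ρ pos) (r : I) : ρ g r r ≠ 0 := by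
  have e := congrFun (congrFun (rho_inv_mul ρ g) r) r
  rw [Matrix.mul_apply, Finset.sum_eq_single r, Matrix.one_apply_eq] at e
  · exact right_ne_zero_of_mul_eq_one e
  · intro k _ hk
    rcases lt_trichotomy (pos k) (pos r) with h | h | h
    · rw [(upB ρ pos).inv_mem hg r k h, zero_mul]
    · exact absurd (hpos h) hk
    · rw [hg k r h, mul_zero]
  · simp

theorem mul_diag {a b : Γ} (hpos : Function.Injective pos) (ha : a ∈ upB ρ pos) (hb : b ∈ upB ρ pos) (r : I) :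
    ρ (a * b) r r = ρ a r r * ρ b r r := by
  rw [map_mul, Matrix.mul_apply, Finset.sum_eq_single r]
  · intro k _ hk
    rcases lt_trichotomy (pos k) (pos r) with h | h | h
    · rw [ha r k h, zero_mul]
    · exact absurd (hpos h) hk
    · rw [hb k r h, mul_zero]
  · simp

end Mon

section Pair

variable {I : Type*} [Fintype I] [DecidableEq I] {F : Type*} [Field F]
  {Γ : Type*} [Group Γ] {ρ : Γ →* Matrix I I F} {pos : I → ℕ} {ι : Type*}

variable (ρ pos ι) in
/-- The data of a monomial (B,N)-pair. -/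
structure Data where
  hρ : Function.Injective ρ
  hpos : Function.Injective pos
  s : ι → Γ
  π : ι → Perm I
  X : ι → Subgroup Γ
  D : ι → I → I → Prop
  s_mon : ∀ i, MW (ρ (s i)) (π i)
  π_sq : ∀ i, π i * π i = 1
  π_inj : Function.Injective π
  gen : upB ρ pos ⊔ monN ρ = ⊤
  W_gen : ∀ g σ, MW (ρ g) σ → σ ∈ Submonoid.closure (Set.range π)
  D_lt : ∀ i k l, D i k l → pos k < pos l
  D_rev : ∀ i k l, D i k l → pos (π i l) < pos (π i k)
  D_inv : ∀ i k l, pos k < pos l → ¬ D i k l → pos (π i k) < pos (π i l)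
  X_supp : ∀ i, ∀ x ∈ X i, ∀ k l, k ≠ l → ρ x k l ≠ 0 → D i k l
  X_diag : ∀ i, ∀ x ∈ X i, ∀ k, ρ x k k = 1
  fact : ∀ i, ∀ b ∈ upB ρ pos, ∃ x ∈ X i, ∀ k l, D i k l → ρ (b * x) k l = 0
  R : ∀ i, ∀ x ∈ X i, x ≠ 1 → ∃ x' ∈ X i, ∀ k l, k ≠ l → ρ (x' * s i * x) k l ≠ 0 → D i l k
  dich : ∀ i g σ, MW (ρ g) σ → (∀ k l, D i k l → pos (σ k) < pos (σ l)) ∨ (∀ k l, D i k l → pos (σ l) < pos (σ k))
  ne : ∀ i, ∃ x ∈ X i, ∃ k l, D i k l ∧ ρ x k l ≠ 0

namespace Data

section Inc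

variable (d : Data ρ pos ι)

include d

theorem X_le (i : ι) {x : Γ} (hx : x ∈ d.X i) : x ∈ upB ρ pos := by
  intro r c hrc
  by_contra hne
  have hrc' : r ≠ c := by
    rintro rfl
    exact lt_irrefl _ hrc
  have := d.D_lt _ _ _ (d.X_supp i x hx r c hrc' hne)
  omega

theorem X_ne_one (i : ι) {x : Γ} {k l : I} (hD : d.D i k l) (h : ρ x k l ≠ 0) : x ≠ 1 := by
  rintro rfl
  apply h
  rw [map_one, Matrix.one_apply_ne]
  rintro rfl
  exact lt_irrefl _ (d.D_lt _ _ _ hD)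

theorem π_inv (i : ι) : (d.π i)⁻¹ = d.π i := by
  have := d.π_sq i
  exact inv_eq_of_mul_eq_one_left this

/-- Conjugating the part of `B` off the root group. -/
theorem conj_off (i : ι) {b : Γ} (hb : b ∈ upB ρ pos) (h0 : ∀ k l, d.D i k l → ρ b k l = 0) :
    d.s i * b * (d.s i)⁻¹ ∈ upB ρ pos := by
  have h1 := conj_upper (y := (d.s i)⁻¹) (M := b) (d.s_mon i).inv (by
    intro k l hkl hnz
    rw [π_inv d]
    have hlt : pos k < pos l := by
      by_contra hge
      push Not at hge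
      have hne : pos k ≠ pos l := fun e => hkl (d.hpos e)
      exact hnz (hb k l (by omega))
    apply d.D_inv _ _ _ hlt
    intro hD
    exact hnz (h0 _ _ hD))
  simpa using h1

theorem dc_union (i : ι) {y b : Γ} (hy : y ∈ monN ρ) (hb : b ∈ upB ρ pos) :
    (∃ b₁ ∈ upB ρ pos, ∃ b₂ ∈ upB ρ pos, d.s i * b * y = b₁ * (d.s i * y) * b₂) ∨
    (∃ b₁ ∈ upB ρ pos, ∃ b₂ ∈ upB ρ pos, d.s i * b * y = b₁ * y * b₂) := by
  obtain ⟨σ, hσ⟩ := hy
  obtain ⟨x₀, hx₀, h0⟩ := d.fact i b hb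
  set b' := b * x₀ with hb'
  have hb'B : b' ∈ upB ρ pos := (upB ρ pos).mul_mem hb (X_le d i hx₀)
  set x := x₀⁻¹ with hx
  have hxX : x ∈ d.X i := (d.X i).inv_mem hx₀
  have hconj := conj_off d i hb'B h0
  have hmain : d.s i * b * y = (d.s i * b' * (d.s i)⁻¹) * (d.s i * x * y) := by
    rw [hb', hx]
    group
  rw [hmain]
  rcases d.dich i y σ hσ with hinc | hdec
  · left
    have hu : y⁻¹ * x * y ∈ upB ρ pos := by
      apply conj_upper hσ
      intro k l hkl hnz
      exact hinc _ _ (d.X_supp i x hxX k l hkl hnz)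
    refine ⟨_, hconj, _, hu, ?_⟩
    group
  · by_cases hx1 : x = 1
    · left
      refine ⟨_, hconj, 1, (upB ρ pos).one_mem, ?_⟩
      rw [hx1]
      group
    · right
      obtain ⟨x', hx', hR⟩ := d.R i x hxX hx1
      have hu : y⁻¹ * (x' * d.s i * x) * y ∈ upB ρ pos := by
        apply conj_upper hσ
        intro k l hkl hnz
        exact hdec _ _ (hR k l hkl hnz)
      refine ⟨_, (upB ρ pos).mul_mem hconj ((upB ρ pos).inv_mem (X_le d i hx')), _, hu, ?_⟩
      group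

theorem conj_ne (i : ι) : (fun b : Γ => d.s i * b * d.s i) '' (upB ρ pos : Set Γ) ≠ (upB ρ pos : Set Γ) := by
  intro h
  obtain ⟨x, hx, k, l, hD, hne⟩ := d.ne i
  have h1 : d.s i * x * d.s i ∈ upB ρ pos := by
    have : d.s i * x * d.s i ∈ ((fun b : Γ => d.s i * b * d.s i) '' (upB ρ pos : Set Γ)) :=
      ⟨_, X_le d i hx, rfl⟩
    rw [h] at this
    exact this
  have h2 := h1 (d.π i k) (d.π i l) (d.D_rev i k l hD)
  have hmon := d.s_mon i
  have hsq : ∀ a, d.π i (d.π i a) = a := fun a => by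
    have := congrArg (fun τ : Perm I => τ a) (d.π_sq i)
    simpa using this
  rw [map_mul, map_mul, mul_mon_apply hmon, mon_mul_apply hmon] at h2
  have e1 : (d.π i).symm (d.π i l) = l := by simp
  rw [e1, hsq] at h2
  have h3 : ρ (d.s i) (d.π i k) k ≠ 0 := by
    have := hmon.ne (d.π i k)
    rwa [hsq] at this
  have h4 : ρ (d.s i) l (d.π i l) ≠ 0 := hmon.ne l
  exact (mul_ne_zero (mul_ne_zero h3 hne) h4) h2

theorem closure_eq : Subgroup.closure (Set.range d.s) ⊔ (upB ρ pos ⊓ monN ρ) = monN ρ := by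
  apply le_antisymm
  · refine sup_le ?_ inf_le_right
    rw [Subgroup.closure_le]
    rintro _ ⟨i, rfl⟩
    exact ⟨_, d.s_mon i⟩
  · have key : ∀ σ : Perm I, σ ∈ Submonoid.closure (Set.range d.π) →
        ∃ h ∈ Subgroup.closure (Set.range d.s), MW (ρ h) σ := by
      intro σ hσ
      induction hσ using Submonoid.closure_induction with
      | mem σ hσ =>
        obtain ⟨i, rfl⟩ := hσ
        exact ⟨d.s i, Subgroup.subset_closure ⟨i, rfl⟩, d.s_mon i⟩
      | one =>
        refine ⟨1, Subgroup.one_mem _, ?_⟩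
        intro r c
        rw [map_one]
        by_cases h : r = c
        · subst h
          simp
        · rw [Matrix.one_apply_ne h]
          simp [Ne.symm h]
      | mul σ τ _ _ h1 h2 =>
        obtain ⟨a, ha, ha'⟩ := h1
        obtain ⟨b, hb, hb'⟩ := h2
        refine ⟨b * a, Subgroup.mul_mem _ hb ha, ?_⟩
        rw [map_mul]
        exact hb'.mul ha'
    rintro g ⟨σ, hσ⟩
    obtain ⟨h, hh, hh'⟩ := key σ (d.W_gen g σ hσ)
    have h3 : MW (ρ (h⁻¹ * g)) (σ * σ⁻¹) := by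
      rw [map_mul]
      exact hh'.inv.mul hσ
    rw [mul_inv_cancel] at h3
    have h4 : h⁻¹ * g ∈ upB ρ pos ⊓ monN ρ := ⟨mem_upB_of_one d.hpos h3, ⟨1, h3⟩⟩
    have : g = h * (h⁻¹ * g) := by group
    rw [this]
    exact Subgroup.mul_mem _ (Subgroup.mem_sup_left hh) (Subgroup.mem_sup_right h4)

/-- The case of a good element. -/
theorem dc_of_inc (i : ι) {y b : Γ} {σ : Perm I} (hσ : MW (ρ y) σ) (hb : b ∈ upB ρ pos)
    (hinc : ∀ k l, d.D i k l → pos (σ k) < pos (σ l)) :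
    ∃ b₁ ∈ upB ρ pos, ∃ b₂ ∈ upB ρ pos, d.s i * b * y = b₁ * (d.s i * y) * b₂ := by
  obtain ⟨x₀, hx₀, h0⟩ := d.fact i b hb
  set b' := b * x₀ with hb'
  have hb'B : b' ∈ upB ρ pos := (upB ρ pos).mul_mem hb (X_le d i hx₀)
  set x := x₀⁻¹ with hx
  have hxX : x ∈ d.X i := (d.X i).inv_mem hx₀
  have hconj := conj_off d i hb'B h0
  have hmain : d.s i * b * y = (d.s i * b' * (d.s i)⁻¹) * (d.s i * x * y) := by
    rw [hb', hx]
    group
  rw [hmain]
  have hu : y⁻¹ * x * y ∈ upB ρ pos := by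
    apply conj_upper hσ
    intro k l hkl hnz
    exact hinc _ _ (d.X_supp i x hxX k l hkl hnz)
  refine ⟨_, hconj, _, hu, ?_⟩
  group

end Inc

/-- The (B,N)-pair. -/
def bn (d : Data ρ pos ι) : BNPair Γ where
  B := upB ρ pos
  N := monN ρ
  S := Set.range d.s
  sup_eq_top := d.gen
  conj_mem := by
    rintro y ⟨σ, hσ⟩ t ⟨htB, ⟨τ, hτ⟩⟩
    obtain rfl := perm_eq_one d.hpos htB hτ
    have := conj_upper (pos := pos) (y := y⁻¹) (M := t) hσ.inv (by
      intro k l hkl hnz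
      exact absurd ((hτ k l).1 hnz) (by simpa using hkl.symm))
    simpa using this
  subset := by
    rintro _ ⟨i, rfl⟩
    exact ⟨_, d.s_mon i⟩
  sq_mem := by
    rintro _ ⟨i, rfl⟩
    apply mem_upB_of_one d.hpos
    rw [map_mul]
    have := (d.s_mon i).mul (d.s_mon i)
    rwa [d.π_sq] at this
  inj := by
    rintro _ ⟨i, rfl⟩ _ ⟨j, rfl⟩ h
    have h1 : MW (ρ ((d.s i)⁻¹ * d.s j)) (d.π j * (d.π i)⁻¹) := by
      rw [map_mul]
      exact (d.s_mon i).inv.mul (d.s_mon j)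
    have h2 := perm_eq_one d.hpos h h1
    have h3 : d.π j = d.π i := by
      have : d.π j * (d.π i)⁻¹ * d.π i = d.π i := by rw [h2, one_mul]
      simpa using this
    rw [d.π_inj h3]
  closure_sup := d.closure_eq
  mul_mem_union := by
    rintro _ ⟨i, rfl⟩ y hy b hb
    rcases d.dc_union i hy hb with ⟨b₁, hb₁, b₂, hb₂, e⟩ | ⟨b₁, hb₁, b₂, hb₂, e⟩
    · left
      rw [DoubleCoset.mem_doubleCoset]
      exact ⟨b₁, hb₁, b₂, hb₂, e⟩
    · right
      rw [DoubleCoset.mem_doubleCoset]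
      exact ⟨b₁, hb₁, b₂, hb₂, e⟩
  conj_ne := by
    rintro _ ⟨i, rfl⟩
    exact d.conj_ne i

/-! ### The quotient -/

variable {Γ' : Type*} [Group Γ'] (d : Data ρ pos ι) (π' : Γ →* Γ') (hπ : Function.Surjective π')
  (hk : π'.ker ≤ upB ρ pos ⊓ monN ρ)

/-- The quotient pair. -/
def qb : BNPair Γ' := Cfsg.Agent.Lib.H14.SLBN.qBN d.bn π' hπ hk

theorem mem_qb_B {x : Γ} : π' x ∈ (qb d π' hπ hk).B ↔ x ∈ upB ρ pos :=
  Cfsg.Agent.Lib.H14.SLBN.mem_map_B d.bn π' hk

theorem lab_qb [Fintype ι] [DecidableEq ι] : Lab (qb d π' hπ hk) Finset.univ (fun i => π' (d.s i)) := by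
  constructor
  · ext x
    constructor
    · rintro ⟨i, -, rfl⟩
      exact ⟨d.s i, ⟨i, rfl⟩, rfl⟩
    · rintro ⟨_, ⟨i, rfl⟩, rfl⟩
      exact ⟨i, by simp, rfl⟩
  · intro i _ j _ e
    have h1 : (d.s i)⁻¹ * d.s j ∈ π'.ker := by
      rw [MonoidHom.mem_ker, map_mul, map_inv]
      have e' : π' (d.s i) = π' (d.s j) := e
      rw [e']
      simp
    have h : (d.s i)⁻¹ * d.s j ∈ upB ρ pos := (hk h1).1
    have h1 : MW (ρ ((d.s i)⁻¹ * d.s j)) (d.π j * (d.π i)⁻¹) := by
      rw [map_mul]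
      exact (d.s_mon i).inv.mul (d.s_mon j)
    have h2 := perm_eq_one d.hpos h h1
    have h3 : d.π j = d.π i := by
      have : d.π j * (d.π i)⁻¹ * d.π i = d.π i := by rw [h2, one_mul]
      simpa using this
    exact d.π_inj h3.symm

theorem rev_inv {σ₀ : Perm I} (hrev : ∀ k l, pos k < pos l → pos (σ₀ l) < pos (σ₀ k)) (hpos : Function.Injective pos) {k l : I}
    (h : pos l < pos k) : pos (σ₀⁻¹ k) < pos (σ₀⁻¹ l) := by
  by_contra hge
  push Not at hge
  have hne : pos (σ₀⁻¹ l) ≠ pos (σ₀⁻¹ k) := by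
    intro e
    have := hpos e
    have h2 : l = k := by simpa using this
    rw [h2] at h
    exact lt_irrefl _ h
  have h3 := hrev _ _ (lt_of_le_of_ne hge hne)
  have e1 : σ₀ (σ₀⁻¹ k) = k := by simp
  have e2 : σ₀ (σ₀⁻¹ l) = l := by simp
  rw [e1, e2] at h3
  omega

theorem qtop {w : Γ} {σ₀ : Perm I} (hw : MW (ρ w) σ₀) (hrev : ∀ k l, pos k < pos l → pos (σ₀ l) < pos (σ₀ k)) :
    Top (qb d π' hπ hk) (π' w) := by
  rintro _ ⟨_, ⟨i, rfl⟩, rfl⟩
  by_contra hlt
  push Not at hlt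
  set P := qb d π' hπ hk with hP
  have hs : π' (d.s i) ∈ P.S := ⟨_, ⟨i, rfl⟩, rfl⟩
  have hn : π' w ∈ P.N := ⟨_, ⟨_, hw⟩, rfl⟩
  obtain ⟨x, hx, k, l, hD, hne⟩ := d.ne i
  obtain ⟨x', hx', hR⟩ := d.R i x hx (X_ne_one d i hD hne)
  have hb : π' x' ∈ P.B := ⟨x', X_le d i hx', rfl⟩
  have h1 := t3_up_right hs hn hb hlt
  have hu : w * (x' * d.s i * x) * w⁻¹ ∈ upB ρ pos := by
    have h2 := conj_upper (y := w⁻¹) (M := x' * d.s i * x) hw.inv (by
      intro a c hac hnz
      have hD' := hR a c hac hnz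
      exact rev_inv hrev d.hpos (d.D_lt _ _ _ hD'))
    simpa using h2
  have h3 : DC P (π' w) (π' w * π' x' * π' (d.s i)) := by
    refine ⟨π' (w * (x' * d.s i * x) * w⁻¹), ⟨_, hu, rfl⟩, π' x⁻¹, ⟨_, (upB ρ pos).inv_mem (X_le d i hx), rfl⟩, ?_⟩
    rw [← map_mul, ← map_mul, ← map_mul, ← map_mul]
    congr 1
    group
  have h4 : DC P (π' w) (π' w * π' (d.s i)) := h3.trans h1.symm
  have h5 := dc_unique hn (P.N.mul_mem hn (S_mem_N hs)) h4
  have h6 : π' (d.s i) ∈ P.B := by simpa using h5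
  exact S_not_mem_B hs h6

/-- The homomorphism from `B` onto the Borel subgroup of the quotient. -/
def rhoB : upB ρ pos →* (qb d π' hπ hk).B := π'.subgroupMap (upB ρ pos)

theorem rhoB_surj : Function.Surjective (rhoB d π' hπ hk) := π'.subgroupMap_surjective (upB ρ pos)

theorem mem_comap_topStab {w : Γ} {σ₀ : Perm I} (hw : MW (ρ w) σ₀) (hrev : ∀ k l, pos k < pos l → pos (σ₀ l) < pos (σ₀ k))
    (t : upB ρ pos) :
    t ∈ (topStab (qb d π' hπ hk) (π' w)).comap (rhoB d π' hπ hk) ↔ ∀ r c, r ≠ c → ρ t.1 r c = 0 := by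
  rw [Subgroup.mem_comap, mem_topStab]
  have e : (π' w)⁻¹ * ((rhoB d π' hπ hk t : (qb d π' hπ hk).B) : Γ') * π' w = π' (w⁻¹ * t.1 * w) := by
    rw [map_mul, map_mul, map_inv]
    rfl
  rw [e, mem_qb_B]
  constructor
  · intro h r c hrc
    by_contra hne
    have hlt : pos r < pos c := by
      by_contra hge
      push Not at hge
      have hne2 : pos r ≠ pos c := fun e => hrc (d.hpos e)
      exact hne (t.2 r c (by omega))
    have h2 := h (σ₀ r) (σ₀ c) (hrev _ _ hlt)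
    rw [map_mul, map_mul, mul_mon_apply hw, mon_mul_apply hw.inv] at h2
    have e1 : σ₀.symm (σ₀ c) = c := by simp
    have e2 : σ₀⁻¹ (σ₀ r) = r := by simp
    rw [e1, e2] at h2
    have h3 : ρ w⁻¹ (σ₀ r) r ≠ 0 := by
      have := (hw.inv).ne (σ₀ r)
      rwa [e2] at this
    have h4 : ρ w c (σ₀ c) ≠ 0 := hw.ne c
    exact (mul_ne_zero (mul_ne_zero h3 hne) h4) h2
  · intro h
    apply conj_upper hw
    intro k l hkl hnz
    exact absurd (h k l hkl) hnz

end Data

end Pair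

section Unip

variable {I : Type*} [Fintype I] [DecidableEq I] {F : Type*} [Field F]
  {Γ : Type*} [Group Γ] (ρ : Γ →* Matrix I I F) (pos : I → ℕ)

/-- The unipotent radical. -/
def uU (hpos : Function.Injective pos) : Subgroup Γ where
  carrier := {g | g ∈ upB ρ pos ∧ ∀ r, ρ g r r = 1}
  mul_mem' := by
    rintro a b ⟨ha, ha'⟩ ⟨hb, hb'⟩
    refine ⟨(upB ρ pos).mul_mem ha hb, fun r => ?_⟩
    rw [mul_diag hpos ha hb, ha', hb', one_mul]
  one_mem' := ⟨(upB ρ pos).one_mem, fun r => by simp⟩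
  inv_mem' := by
    rintro a ⟨ha, ha'⟩
    refine ⟨(upB ρ pos).inv_mem ha, fun r => ?_⟩
    have h1 := mul_diag hpos ha ((upB ρ pos).inv_mem ha) r
    rw [mul_inv_cancel, ha', one_mul, map_one, Matrix.one_apply_eq] at h1
    exact h1.symm

variable {ρ pos}

theorem uU_pgroup (hρ : Function.Injective ρ) (hpos : Function.Injective pos) (p : ℕ) [hp : Fact p.Prime] [CharP F p] :
    IsPGroup p (uU ρ pos hpos) := by
  classical
  rintro ⟨u, huB, hu1⟩
  rcases isEmpty_or_nonempty I with hI | hI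
  · refine ⟨0, ?_⟩
    apply Subtype.ext
    apply hρ
    simp only [pow_zero, pow_one, OneMemClass.coe_one]
    exact Subsingleton.elim _ _
  set N := ρ u - 1 with hN
  have h0 : ∀ k c, N k c ≠ 0 → pos k < pos c := by
    intro k c hne
    by_cases hkc : k = c
    · subst hkc
      exfalso
      apply hne
      rw [hN, Matrix.sub_apply, hu1, Matrix.one_apply_eq, sub_self]
    · rw [hN, Matrix.sub_apply, Matrix.one_apply_ne hkc, sub_zero] at hne
      by_contra hge
      push Not at hge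
      have hne2 : pos c ≠ pos k := fun e => hkc (hpos e).symm
      exact hne (huB k c (lt_of_le_of_ne hge hne2))
  have hpow : ∀ (j : ℕ) (r c : I), (N ^ j) r c ≠ 0 → pos r + j ≤ pos c := by
    intro j
    induction j with
    | zero =>
      intro r c h
      rw [pow_zero] at h
      by_cases hrc : r = c
      · rw [hrc]; simp
      · rw [Matrix.one_apply_ne hrc] at h
        exact absurd rfl h
    | succ j ih =>
      intro r c h
      rw [pow_succ, Matrix.mul_apply] at h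
      obtain ⟨k, -, hk⟩ := Finset.exists_ne_zero_of_sum_ne_zero h
      have h1 := ih r k (left_ne_zero_of_mul hk)
      have h2 := h0 k c (right_ne_zero_of_mul hk)
      omega
  set J := Finset.univ.sup pos + 1 with hJ
  have hNJ : N ^ J = 0 := by
    ext r c
    by_contra hne
    have h1 := hpow J r c hne
    have h2 : pos c ≤ Finset.univ.sup pos := Finset.le_sup (Finset.mem_univ c)
    rw [Matrix.zero_apply] at *
    omega
  have hJp : J ≤ p ^ J := (Nat.lt_pow_self hp.out.one_lt).le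
  have hN0 : N ^ (p ^ J) = 0 := pow_eq_zero_of_le hJp hNJ
  have h3 : (ρ u - 1) ^ (p ^ J) = (ρ u) ^ (p ^ J) - 1 ^ (p ^ J) :=
    sub_pow_char_pow_of_commute p J (Commute.one_right _)
  rw [← hN, hN0, one_pow, eq_comm, sub_eq_zero] at h3
  refine ⟨J, ?_⟩
  apply Subtype.ext
  apply hρ
  change ρ (u ^ (p ^ J)) = ρ 1
  rw [map_pow, h3, map_one]

theorem uU_norm (hpos : Function.Injective pos) {b u : Γ} (hb : b ∈ upB ρ pos) (hu : u ∈ uU ρ pos hpos) :
    b * u * b⁻¹ ∈ uU ρ pos hpos := by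
  refine ⟨(upB ρ pos).mul_mem ((upB ρ pos).mul_mem hb hu.1) ((upB ρ pos).inv_mem hb), fun r => ?_⟩
  rw [mul_diag hpos ((upB ρ pos).mul_mem hb hu.1) ((upB ρ pos).inv_mem hb), mul_diag hpos hb hu.1, hu.2, mul_one,
    ← mul_diag hpos hb ((upB ρ pos).inv_mem hb), mul_inv_cancel, map_one, Matrix.one_apply_eq]

theorem not_dvd_D [Finite Γ] [Fintype F] (hρ : Function.Injective ρ) (hpos : Function.Injective pos) (p : ℕ) [hp : Fact p.Prime] [CharP F p]
    (D0 : Subgroup (upB ρ pos)) (hD : ∀ t, t ∈ D0 ↔ ∀ r c, r ≠ c → ρ t.1 r c = 0) : ¬ p ∣ Nat.card D0 := by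
  classical
  intro h
  obtain ⟨t, ht⟩ := exists_prime_orderOf_dvd_card' p h
  set q := Fintype.card F with hq
  have hdg : ρ t.1.1 = Matrix.diagonal (fun r => ρ t.1.1 r r) := by
    ext r c
    by_cases hrc : r = c
    · subst hrc
      simp
    · rw [Matrix.diagonal_apply_ne _ hrc]
      exact (hD t.1).1 t.2 r c hrc
  have h1 : t ^ (q - 1) = 1 := by
    apply Subtype.ext
    apply Subtype.ext
    apply hρ
    change ρ (t.1.1 ^ (q - 1)) = ρ 1
    rw [map_pow, hdg, Matrix.diagonal_pow, map_one, ← Matrix.diagonal_one]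
    congr 1
    funext r
    have := FiniteField.pow_card_sub_one_eq_one (ρ t.1.1 r r) (diag_ne hpos t.1.2 r)
    simpa using this
  have h2 : p ∣ q - 1 := by
    rw [← ht]
    exact orderOf_dvd_of_pow_eq_one h1
  have h3 : p ∣ q := by
    obtain ⟨f, -, hf⟩ := FiniteField.card F p
    rw [hq, hf]
    exact dvd_pow_self p f.pos.ne'
  have h4 : 1 ≤ q := Fintype.card_pos
  have h5 := Nat.dvd_sub h3 h2
  have h6 : q - (q - 1) = 1 := by omega
  rw [h6] at h5
  exact hp.out.one_lt.ne' (Nat.dvd_one.mp h5)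

theorem card_index [Finite Γ] (hρ : Function.Injective ρ) (hpos : Function.Injective pos)
    (D0 : Subgroup (upB ρ pos)) (hD : ∀ t, t ∈ D0 ↔ ∀ r c, r ≠ c → ρ t.1 r c = 0)
    (hdiag : ∀ b ∈ upB ρ pos, ∃ t : Γ, ∀ r c, ρ t r c = if r = c then ρ b r r else 0) :
    D0.index = Nat.card (uU ρ pos hpos) := by
  classical
  let φ : uU ρ pos hpos → (upB ρ pos ⧸ D0) := fun u => QuotientGroup.mk ⟨u.1, u.2.1⟩
  have hbij : Function.Bijective φ := by
    constructor
    · intro a b hab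
      have h1 : ((⟨a.1, a.2.1⟩ : upB ρ pos))⁻¹ * ⟨b.1, b.2.1⟩ ∈ D0 := QuotientGroup.eq.mp hab
      have h2 := (hD _).1 h1
      have hab' : a.1⁻¹ * b.1 ∈ uU ρ pos hpos := (uU ρ pos hpos).mul_mem ((uU ρ pos hpos).inv_mem a.2) b.2
      have h3 : ρ (a.1⁻¹ * b.1) = 1 := by
        ext r c
        by_cases hrc : r = c
        · subst hrc
          rw [hab'.2, Matrix.one_apply_eq]
        · rw [Matrix.one_apply_ne hrc]
          exact h2 r c hrc
      have h4 : a.1⁻¹ * b.1 = 1 := hρ (by rw [h3, map_one])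
      apply Subtype.ext
      exact (inv_mul_eq_one.mp h4)
    · intro x
      obtain ⟨⟨b, hb⟩, rfl⟩ := QuotientGroup.mk_surjective x
      obtain ⟨t, ht⟩ := hdiag b hb
      have htB : t ∈ upB ρ pos := by
        intro r c hrc
        rw [ht, if_neg]
        rintro rfl
        exact lt_irrefl _ hrc
      have hu : b * t⁻¹ ∈ uU ρ pos hpos := by
        refine ⟨(upB ρ pos).mul_mem hb ((upB ρ pos).inv_mem htB), fun r => ?_⟩
        rw [mul_diag hpos hb ((upB ρ pos).inv_mem htB)]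
        have h1 := mul_diag hpos htB ((upB ρ pos).inv_mem htB) r
        rw [mul_inv_cancel, map_one, Matrix.one_apply_eq, ht, if_pos rfl] at h1
        exact h1.symm
      refine ⟨⟨_, hu⟩, ?_⟩
      apply QuotientGroup.eq.mpr
      rw [hD]
      intro r c hrc
      have e : ρ (b * t⁻¹)⁻¹ * ρ b = ρ t := by
        rw [← map_mul]
        congr 1
        group
      change ρ ((b * t⁻¹)⁻¹ * b) r c = 0
      rw [map_mul, e, ht, if_neg hrc]
  rw [Subgroup.index_eq_card, ← Nat.card_congr (Equiv.ofBijective φ hbij)]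

end Unip

namespace Data

variable {I : Type*} [Fintype I] [DecidableEq I] {F : Type*} [Field F]
  {Γ : Type*} [Group Γ] {ρ : Γ →* Matrix I I F} {pos : I → ℕ} {ι : Type*} (d : Data ρ pos ι)

theorem mem_of_conj {n : Γ} (hn : n ∈ monN ρ) (h : ∀ u ∈ uU ρ pos d.hpos, n⁻¹ * u * n ∈ upB ρ pos) : n ∈ upB ρ pos := by
  by_contra hnB
  set P := d.bn with hP
  have hn1 : n ∈ P.N := hn
  have hlen : len P n ≠ 0 := fun h0 => hnB ((len_eq_zero_iff hn1).1 h0)
  obtain ⟨t, ht, n', hn', e, hl⟩ := exists_left_factor hn1 hlen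
  have hlt : len P (t * n) < len P n := by
    have e' : t * n = t * (t * n') := congrArg _ e
    rw [e', len_sq_mul ht hn']
    omega
  obtain ⟨i, rfl⟩ := ht
  obtain ⟨σ, hσ⟩ := hn
  rcases d.dich i n σ hσ with hinc | hdec
  · obtain ⟨b, hb, hdc⟩ := t3_down (P := P) ⟨i, rfl⟩ hn1 hlt
    obtain ⟨b₁, hb₁, b₂, hb₂, e2⟩ := d.dc_of_inc i hσ hb hinc
    have h1 : DC P (d.s i * n) (d.s i * b * n) := ⟨b₁, hb₁, b₂, hb₂, e2⟩
    have h2 : DC P n (d.s i * n) := hdc.trans h1.symm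
    have h3 := len_congr_dc hn1 (P.N.mul_mem (S_mem_N (P := P) ⟨i, rfl⟩) hn1) h2
    omega
  · obtain ⟨x, hx, k, l, hD, hne⟩ := d.ne i
    have hxU : x ∈ uU ρ pos d.hpos := ⟨d.X_le i hx, d.X_diag i x hx⟩
    have h1 := h x hxU (σ k) (σ l) (hdec _ _ hD)
    rw [map_mul, map_mul, mul_mon_apply hσ, mon_mul_apply hσ.inv] at h1
    have e1 : σ.symm (σ l) = l := by simp
    have e2 : σ⁻¹ (σ k) = k := by simp
    rw [e1, e2] at h1
    have h3 : ρ n⁻¹ (σ k) k ≠ 0 := by
      have := (hσ.inv).ne (σ k)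
      rwa [e2] at this
    have h4 : ρ n l (σ l) ≠ 0 := hσ.ne l
    exact (mul_ne_zero (mul_ne_zero h3 hne) h4) h1

include d in
theorem not_dvd_index [Finite Γ] (p : ℕ) [hp : Fact p.Prime] [CharP F p] : ¬ p ∣ (upB ρ pos).index := by
  classical
  have hpg := uU_pgroup d.hρ d.hpos p
  have h1 := hpg.card_modEq_card_fixedPoints (Γ ⧸ upB ρ pos)
  have h2 : Nat.card (MulAction.fixedPoints (uU ρ pos d.hpos) (Γ ⧸ upB ρ pos)) = 1 := by
    have hmem : ((1 : Γ) : Γ ⧸ upB ρ pos) ∈ MulAction.fixedPoints (uU ρ pos d.hpos) (Γ ⧸ upB ρ pos) := by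
      rintro ⟨u, hu⟩
      change ((u * 1 : Γ) : Γ ⧸ upB ρ pos) = _
      apply QuotientGroup.eq.mpr
      simpa using (upB ρ pos).inv_mem hu.1
    rw [Nat.card_eq_one_iff_unique]
    refine ⟨⟨?_⟩, ⟨⟨_, hmem⟩⟩⟩
    have key : ∀ x ∈ MulAction.fixedPoints (uU ρ pos d.hpos) (Γ ⧸ upB ρ pos), x = ((1 : Γ) : Γ ⧸ upB ρ pos) := by
      intro x hx
      obtain ⟨g, rfl⟩ := QuotientGroup.mk_surjective x
      obtain ⟨n, hn, b₁, hb₁, b₂, hb₂, rfl⟩ := bruhat (P := d.bn) g
      have hnB : n ∈ upB ρ pos := by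
        apply d.mem_of_conj hn
        intro u hu
        have h3 : b₁ * u * b₁⁻¹ ∈ uU ρ pos d.hpos := uU_norm d.hpos hb₁ hu
        have h4 := hx ⟨_, h3⟩
        have h5 : (b₁ * n * b₂)⁻¹ * (b₁ * u * b₁⁻¹ * (b₁ * n * b₂)) ∈ upB ρ pos := by
          have h6 : ((b₁ * u * b₁⁻¹ * (b₁ * n * b₂) : Γ) : Γ ⧸ upB ρ pos) = ((b₁ * n * b₂ : Γ) : Γ ⧸ upB ρ pos) := h4
          have := QuotientGroup.eq.mp h6.symm
          exact this
        have h7 : n⁻¹ * u * n = b₂ * ((b₁ * n * b₂)⁻¹ * (b₁ * u * b₁⁻¹ * (b₁ * n * b₂))) * b₂⁻¹ := by group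
        rw [h7]
        exact (upB ρ pos).mul_mem ((upB ρ pos).mul_mem hb₂ h5) ((upB ρ pos).inv_mem hb₂)
      apply QuotientGroup.eq.mpr
      have h8 := (upB ρ pos).mul_mem ((upB ρ pos).mul_mem hb₁ hnB) hb₂
      simpa using (upB ρ pos).inv_mem ((upB ρ pos).inv_mem ((upB ρ pos).inv_mem h8))
    intro a b
    apply Subtype.ext
    rw [key a.1 a.2, key b.1 b.2]
  rw [h2, ← Subgroup.index_eq_card] at h1
  intro hdvd
  have h3 : (upB ρ pos).index % p = 0 := Nat.mod_eq_zero_of_dvd hdvd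
  have h4 : (upB ρ pos).index % p = 1 % p := h1
  rw [h3, Nat.mod_eq_of_lt hp.out.one_lt] at h4
  exact zero_ne_one h4

variable {Γ' : Type*} [Group Γ'] (π' : Γ →* Γ') (hπ : Function.Surjective π')
  (hk : π'.ker ≤ upB ρ pos ⊓ monN ρ)

include d hπ hk in
/-- The order of the Sylow subgroup. -/
theorem pow_fact [Finite Γ] [Fintype F] (p : ℕ) [hp : Fact p.Prime] [CharP F p]
    (D0 : Subgroup (upB ρ pos)) (hD : ∀ t, t ∈ D0 ↔ ∀ r c, r ≠ c → ρ t.1 r c = 0)
    (hdiag : ∀ b ∈ upB ρ pos, ∃ t : Γ, ∀ r c, ρ t r c = if r = c then ρ b r r else 0) :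
    p ^ (Nat.card Γ').factorization p = D0.index := by
  classical
  haveI : Finite Γ' := Finite.of_surjective π' hπ
  have hK := card_index d.hρ d.hpos D0 hD hdiag
  obtain ⟨e, he⟩ := IsPGroup.iff_card.mp (uU_pgroup d.hρ d.hpos p)
  rw [hK, he]
  have hD' := not_dvd_D d.hρ d.hpos p D0 hD
  have hI := d.not_dvd_index p
  have hker : ¬ p ∣ Nat.card π'.ker := by
    intro h
    apply hD'
    have hle : (π'.ker.subgroupOf (upB ρ pos)) ≤ D0 := by
      intro t ht
      rw [hD]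
      have h1 : (t : Γ) ∈ π'.ker := ht
      obtain ⟨σ, hσ⟩ := (hk h1).2
      obtain rfl := perm_eq_one d.hpos t.2 hσ
      intro r c hrc
      exact hσ.eq_zero (by simpa using (Ne.symm hrc))
    have h2 : Nat.card (π'.ker.subgroupOf (upB ρ pos)) = Nat.card π'.ker :=
      Nat.card_congr (Subgroup.subgroupOfEquivOfLe (fun x hx => (hk hx).1)).toEquiv
    rw [← h2] at h
    exact h.trans (Subgroup.card_dvd_of_le hle)
  have h1 : Nat.card Γ = (upB ρ pos).index * (D0.index * Nat.card D0) := by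
    have h2 := Subgroup.card_mul_index (upB ρ pos)
    have h3 := Subgroup.card_mul_index D0
    rw [mul_comm D0.index, mul_comm, h3, h2]
  have h4 : Nat.card Γ = Nat.card Γ' * Nat.card π'.ker := by
    have h5 := Subgroup.card_mul_index π'.ker
    rw [Subgroup.index_ker, MonoidHom.range_eq_top.mpr hπ, Subgroup.card_top] at h5
    rw [← h5, mul_comm]
  have hpp := hp.out
  have n0 : ∀ {a : ℕ}, ¬ p ∣ a → a ≠ 0 := fun {a} ha h0 => ha (h0 ▸ dvd_zero p)
  have h6 : (Nat.card Γ).factorization p = e := by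
    rw [h1, hK, he, Nat.factorization_mul (n0 hI) (mul_ne_zero (pow_ne_zero _ hpp.ne_zero) (n0 hD')),
      Nat.factorization_mul (pow_ne_zero _ hpp.ne_zero) (n0 hD')]
    simp only [Finsupp.coe_add, Pi.add_apply]
    rw [Nat.factorization_eq_zero_of_not_dvd hI, Nat.factorization_eq_zero_of_not_dvd hD', Nat.factorization_pow,
      hpp.factorization]
    simp
  have h7 : (Nat.card Γ).factorization p = (Nat.card Γ').factorization p := by
    rw [h4, Nat.factorization_mul Nat.card_pos.ne' (n0 hker)]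
    simp only [Finsupp.coe_add, Pi.add_apply]
    rw [Nat.factorization_eq_zero_of_not_dvd hker, add_zero]
  rw [← h7, h6]

include d in
/-- **The Steinberg character.** -/
theorem steinberg [Fintype ι] [DecidableEq ι] [Finite Γ] [Fintype F] (p : ℕ) [hp : Fact p.Prime] [CharP F p]
    (hπ : Function.Surjective π') (hk : π'.ker ≤ upB ρ pos ⊓ monN ρ)
    (hdiag : ∀ b ∈ upB ρ pos, ∃ t : Γ, ∀ r c, ρ t r c = if r = c then ρ b r r else 0)
    {w : Γ} {σ₀ : Perm I} (hw : MW (ρ w) σ₀) (hrev : ∀ k l, pos k < pos l → pos (σ₀ l) < pos (σ₀ k)) :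
    ∃ χ : Γ' → ℂ, IsIrrCharacter Γ' χ ∧ ∀ P : Sylow p Γ', χ 1 = Nat.card P ∧ ∀ x : Γ', x ∈ P → x ≠ 1 → χ x = 0 := by
  classical
  haveI : Finite Γ' := Finite.of_surjective π' hπ
  letI : Fintype Γ' := Fintype.ofFinite _
  set Pq := qb d π' hπ hk with hPq
  have hlab := lab_qb d π' hπ hk
  have hirr : IsIrrCharacter Γ' (St Pq Finset.univ (fun i => π' (d.s i))) := St_irr hlab
  have hn₀ : π' w ∈ Pq.N := ⟨_, ⟨_, hw⟩, rfl⟩
  have htop := qtop d π' hπ hk hw hrev
  set D0 := (topStab Pq (π' w)).comap (rhoB d π' hπ hk) with hD0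
  have hD : ∀ t, t ∈ D0 ↔ ∀ r c, r ≠ c → ρ t.1 r c = 0 := mem_comap_topStab d π' hπ hk hw hrev
  have hidx : Nat.card (Pq.B ⧸ topStab Pq (π' w)) = D0.index :=
    (Subgroup.index_comap_of_surjective _ (rhoB_surj d π' hπ hk)).symm
  have hpow := pow_fact d π' hπ hk p D0 hD hdiag
  have hone : St Pq Finset.univ (fun i => π' (d.s i)) 1 = (D0.index : ℂ) := by
    rw [St_one hlab hn₀ htop, hidx]
  refine ⟨St Pq Finset.univ (fun i => π' (d.s i)), hirr, fun P => ⟨?_, fun x hx hne => ?_⟩⟩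
  · rw [hone, Sylow.card_eq_multiplicity P, hpow]
  · have hxp : p ∣ orderOf x := by
      have hPp : IsPGroup p P := P.isPGroup'
      obtain ⟨k', hk'⟩ := (hPp ⟨x, hx⟩)
      have h1 : orderOf x ∣ p ^ k' := by
        apply orderOf_dvd_of_pow_eq_one
        have := congrArg Subtype.val hk'
        simpa using this
      obtain ⟨j, -, hj⟩ := (Nat.dvd_prime_pow hp.out).1 h1
      rw [hj]
      have hj0 : j ≠ 0 := by
        rintro rfl
        apply hne
        simpa using hj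
      exact dvd_pow_self p hj0
    apply Cfsg.Agent.Lib.Char.apply_eq_zero_of_defect_zero hirr hp.out _ hxp
    rw [hpow]
    have h1 := Cfsg.Agent.Lib.Char.apply_one_eq_charDegree (Cfsg.Agent.Lib.Char.IsIrrCharacter.isCharacter hirr)
    rw [hone] at h1
    have h2 : Cfsg.charDegree (St Pq Finset.univ (fun i => π' (d.s i))) = D0.index := by
      exact_mod_cast h1.symm
    rw [h2]

end Data

end Cfsg.Agent.Lib.H14.MonBN
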