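/-
The Steinberg character of `PSL_n(F)`.
-/
import Mathlib
import Cfsg.Agent.Lib.H14.SLBN
import Cfsg.Agent.Lib.Known.BNStFix
import Cfsg.Agent.Lib.Known.GLFlag6
import Cfsg.Agent.Lib.Char.DefectZero
import Cfsg.Agent.Lib.Classical.Card2

set_option autoImplicit false
set_option linter.unusedVariables false
set_option linter.unusedSectionVars false
set_option linter.style.haveILetI false
set_option linter.unusedSimpArgs false

namespace Cfsg.Agent.Lib.H14.SLBN

open Cfsg Cfsg.Agent.Lib.BN Cfsg.Agent.Lib.Known.BNSt Matrix Equiv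

variable {m : ℕ} {F : Type*} [Field F]

/-- `PSL_{m+1}`. -/
abbrev PS (m : ℕ) (F : Type*) [Field F] := Matrix.ProjectiveSpecialLinearGroup (Fin (m + 1)) F

/-- The projection. -/
def pr (m : ℕ) (F : Type*) [Field F] : SLn (m + 1) F →* PS m F := QuotientGroup.mk' _

theorem pr_surj : Function.Surjective (pr m F) := QuotientGroup.mk'_surjective _

theorem ker_pr : (pr m F).ker = Subgroup.center (SLn (m + 1) F) := QuotientGroup.ker_mk' _

theorem scalar_mon {g : SLn (m + 1) F} {r : F} (h : Matrix.scalar (Fin (m + 1)) r = g.1) : MonW g.1 1 := by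
  have hr : r ≠ 0 := by
    intro h0
    have h1 : g.1.det = 1 := g.2
    rw [← h, h0] at h1
    simp at h1
  intro k l
  rw [← h]
  by_cases hkl : k = l
  · subst hkl
    simpa using hr
  · have : Matrix.scalar (Fin (m + 1)) r k l = 0 := by
      simp [Matrix.scalar_apply, Matrix.diagonal_apply_ne _ hkl]
    rw [this]
    simp [Ne.symm hkl]

theorem ker_le : (pr m F).ker ≤ (slBN m F).B ⊓ (slBN m F).N := by
  rw [ker_pr]
  intro g hg
  obtain ⟨r, -, hr⟩ := (Matrix.SpecialLinearGroup.mem_center_iff (A := g)).1 hg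
  have h1 := scalar_mon hr
  exact ⟨mem_BB_of_one h1, ⟨1, h1⟩⟩

/-- The (B,N)-pair of `PSL_{m+1}`. -/
def pslBN (m : ℕ) (F : Type*) [Field F] : BNPair (PS m F) := qBN (slBN m F) (pr m F) pr_surj ker_le

/-- The labels. -/
def lbl (i : Fin m) : PS m F := pr m F (si i)

theorem si_inj {i j : Fin m} (h : (si (F := F) i)⁻¹ * si j ∈ BB (m + 1) F) : i = j := by
  have h0 := (slBN m F).inj _ ⟨i, rfl⟩ _ ⟨j, rfl⟩ h
  have h1 : MonW ((si (F := F) i)⁻¹ * si j).1 (sg j * (sg i)⁻¹) := (si_mon i).inv.mul (si_mon j)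
  have h2 := perm_eq_one h h1
  have h3 : sg j = sg i := by
    have : sg j * (sg i)⁻¹ * sg i = sg i := by rw [h2, one_mul]
    simpa using this
  have h4 : sg j i.castSucc = i.succ := by rw [h3, sg_a]
  rw [sg, Equiv.swap_apply_def] at h4
  have h6 : i.val = j.val := by
    split_ifs at h4 with h7 h8
    · have := congrArg Fin.val h7
      simpa using this
    · have e1 := congrArg Fin.val h8
      have e2 := congrArg Fin.val h4
      simp at e1 e2
      omega
    · have e2 := congrArg Fin.val h4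
      simp at e2
  exact Fin.ext h6

theorem lab_psl : Lab (pslBN m F) Finset.univ (lbl (m := m) (F := F)) := by
  constructor
  · ext x
    constructor
    · rintro ⟨i, -, rfl⟩
      exact ⟨si i, ⟨i, rfl⟩, rfl⟩
    · rintro ⟨_, ⟨i, rfl⟩, rfl⟩
      exact ⟨i, by simp, rfl⟩
  · intro i _ j _ e
    apply si_inj (F := F)
    have h1 : (si (F := F) i)⁻¹ * si j ∈ (pr m F).ker := by
      rw [MonoidHom.mem_ker, map_mul, map_inv]
      have e' : pr m F (si i) = pr m F (si j) := e
      rw [e']
      simp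
    exact (ker_le h1).1

/-- The longest element. -/
def w0 (m : ℕ) (F : Type*) [Field F] : SLn (m + 1) F := monSL Fin.revPerm 0

theorem w0_mon : MonW (w0 m F).1 Fin.revPerm := monSL_mon _ _

theorem rev_inv : (Fin.revPerm : Perm (Fin (m + 1)))⁻¹ = Fin.revPerm := by
  ext x
  rw [Equiv.Perm.inv_def]
  simp

theorem w0_top : Top (pslBN m F) (pr m F (w0 m F)) := by
  rintro _ ⟨_, ⟨i, rfl⟩, rfl⟩
  by_contra hlt
  push Not at hlt
  set P := pslBN m F with hP
  have hs : pr m F (si i) ∈ P.S := ⟨_, ⟨i, rfl⟩, rfl⟩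
  have hn : pr m F (w0 m F) ∈ P.N := ⟨_, ⟨_, w0_mon⟩, rfl⟩
  have hne := i01_ne i
  have hlt' : i.castSucc < i.succ := Fin.castSucc_lt_succ
  set x := tr i.castSucc i.succ hne (1 : F) with hx
  have hb : pr m F x ∈ P.B := ⟨x, tr_mem_BB hlt' _, rfl⟩
  have h1 := t3_up_right hs hn hb hlt
  -- the other double coset
  have hu : w0 m F * (tr i.castSucc i.succ hne (1 : F)⁻¹ * si i * x) * (w0 m F)⁻¹ ∈ BB (m + 1) F := by
    have h2 := conj_upper (y := (w0 m F)⁻¹) (M := tr i.castSucc i.succ hne (1 : F)⁻¹ * si i * x) w0_mon.inv (by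
      intro k l hkl hnz
      obtain ⟨rfl, rfl⟩ := R_off i one_ne_zero hkl hnz
      rw [rev_inv]
      simp only [Fin.revPerm_apply]
      exact Fin.rev_lt_rev.2 hlt')
    simpa using h2
  set u := w0 m F * (tr i.castSucc i.succ hne (1 : F)⁻¹ * si i * x) * (w0 m F)⁻¹ with hu'
  have e1 : w0 m F * x * si i = u * w0 m F * tr i.castSucc i.succ hne (-1 : F) := by
    have e2 : tr i.castSucc i.succ hne (1 : F)⁻¹ = x := by
      rw [inv_one]
    have e3 : x * tr i.castSucc i.succ hne (-1 : F) = 1 := by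
      rw [hx, tr_mul, add_neg_cancel, tr_zero]
    rw [hu', e2]
    calc w0 m F * x * si i = w0 m F * x * si i * (x * tr i.castSucc i.succ hne (-1 : F)) := by rw [e3, mul_one]
      _ = _ := by group
  have h3 : DC P (pr m F (w0 m F)) (pr m F (w0 m F) * pr m F x * pr m F (si i)) := by
    refine ⟨pr m F u, ⟨u, hu, rfl⟩, pr m F (tr i.castSucc i.succ hne (-1 : F)), ⟨_, tr_mem_BB hlt' _, rfl⟩, ?_⟩
    rw [← map_mul, ← map_mul, e1]
    simp
  have h4 : DC P (pr m F (w0 m F)) (pr m F (w0 m F) * pr m F (si i)) := h3.trans h1.symm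
  have h5 := dc_unique hn (P.N.mul_mem hn (S_mem_N hs)) h4
  have h6 : pr m F (si i) ∈ P.B := by simpa using h5
  exact S_not_mem_B hs h6

theorem card_pairs (n : ℕ) : Nat.card {p : Fin n × Fin n // p.1 < p.2} = n.choose 2 := by
  classical
  rw [Nat.card_eq_fintype_card, Fintype.card_subtype, Finset.card_filter, Fintype.sum_prod_type_right]
  have h1 : ∀ c : Fin n, (∑ r : Fin n, if r < c then 1 else 0) = c.val := by
    intro c
    rw [← Finset.card_filter, Finset.filter_gt_eq_Iio, Fin.card_Iio]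
  simp only [h1]
  rw [Fin.sum_univ_eq_sum_range (fun i => i) n, Finset.sum_range_id, Nat.choose_two_right]

section Count

variable {n : ℕ}

/-- The unitriangular matrix with prescribed entries. -/
def utM (f : {p : Fin n × Fin n // p.1 < p.2} → F) : Matrix (Fin n) (Fin n) F :=
  fun r c => if r = c then 1 else if h : r < c then f ⟨(r, c), h⟩ else 0

theorem utM_upper (f : {p : Fin n × Fin n // p.1 < p.2} → F) : (utM f).BlockTriangular id := by
  intro r c h
  have h1 : ¬ r = c := h.ne'
  have h2 : ¬ r < c := not_lt.2 h.le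
  simp [utM, h1, h2]

theorem utM_det (f : {p : Fin n × Fin n // p.1 < p.2} → F) : (utM f).det = 1 := by
  rw [Matrix.det_of_isUpperTriangular (utM_upper f)]
  simp [utM]

theorem card_BB [Fintype F] (D : Subgroup (BB n F)) (hD : ∀ t : BB n F, t ∈ D ↔ ∀ r c : Fin n, r ≠ c → t.1.1 r c = 0) :
    Nat.card (BB n F) = Fintype.card F ^ (n.choose 2) * Nat.card D := by
  classical
  have hdiag : ∀ t : D, (t.1.1.1 : Matrix (Fin n) (Fin n) F) = Matrix.diagonal (fun i => t.1.1.1 i i) := by
    intro t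
    ext r c
    by_cases h : r = c
    · subst h
      simp
    · rw [Matrix.diagonal_apply_ne _ h]
      exact (hD t.1).1 t.2 r c h
  have hent : ∀ (f : {p : Fin n × Fin n // p.1 < p.2} → F) (t : D) (r c : Fin n),
      (utM f * t.1.1.1) r c = utM f r c * t.1.1.1 c c := by
    intro f t r c
    conv_lhs => rw [hdiag t, Matrix.mul_diagonal]
  let Ψ : ({p : Fin n × Fin n // p.1 < p.2} → F) × D → BB n F := fun x =>
    ⟨⟨utM x.1, utM_det x.1⟩ * x.2.1.1, Subgroup.mul_mem _ (utM_upper x.1) x.2.1.2⟩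
  have hbij : Function.Bijective Ψ := by
    constructor
    · rintro ⟨f, t⟩ ⟨f', t'⟩ h
      have hm : ∀ r c, utM f r c * t.1.1.1 c c = utM f' r c * t'.1.1.1 c c := by
        intro r c
        have h1 : (utM f * t.1.1.1) r c = (utM f' * t'.1.1.1) r c := by
          have := congrArg (fun z : BB n F => (z.1.1 : Matrix (Fin n) (Fin n) F) r c) h
          exact this
        rwa [hent, hent] at h1
      have hdd : ∀ c, t.1.1.1 c c = t'.1.1.1 c c := by
        intro c
        have := hm c c
        simpa [utM] using this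
      have htt : t = t' := by
        apply Subtype.ext
        apply Subtype.ext
        apply Subtype.ext
        ext r c
        by_cases hrc : r = c
        · subst hrc
          exact hdd r
        · rw [(hD t.1).1 t.2 r c hrc, (hD t'.1).1 t'.2 r c hrc]
      subst htt
      have hff : f = f' := by
        funext ⟨⟨r, c⟩, hrc⟩
        have h1 := hm r c
        have h2 := upper_diag_ne t.1.2 c
        have h3 : (utM f r c) = utM f' r c := mul_right_cancel₀ h2 h1
        have hrc' : r < c := hrc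
        simpa [utM, hrc'.ne, hrc'] using h3
      rw [hff]
    · rintro ⟨b, hb⟩
      have hdet : (Matrix.diagonal (fun i => b.1 i i)).det = 1 := by
        rw [Matrix.det_diagonal, ← Matrix.det_of_isUpperTriangular hb]
        exact b.2
      let t₀ : SLn n F := ⟨Matrix.diagonal (fun i => b.1 i i), hdet⟩
      have ht₀B : t₀ ∈ BB n F := by
        rw [mem_BB]
        intro r c hrc
        exact Matrix.diagonal_apply_ne _ hrc.ne'
      have ht₀D : (⟨t₀, ht₀B⟩ : BB n F) ∈ D := by
        rw [hD]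
        intro r c hrc
        exact Matrix.diagonal_apply_ne _ hrc
      refine ⟨(fun p => b.1 p.1.1 p.1.2 / b.1 p.1.2 p.1.2, ⟨⟨t₀, ht₀B⟩, ht₀D⟩), ?_⟩
      apply Subtype.ext
      apply Subtype.ext
      ext r c
      change (utM _ * (Matrix.diagonal (fun i => b.1 i i)) : Matrix (Fin n) (Fin n) F) r c = b.1 r c
      rw [Matrix.mul_diagonal]
      have hne := upper_diag_ne hb c
      rcases lt_trichotomy r c with h | h | h
      · simp only [utM, h.ne, h, dif_pos, if_false]
        field_simp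
      · subst h
        simp [utM]
      · have h1 : ¬ r = c := h.ne'
        have h2 : ¬ r < c := not_lt.2 h.le
        simp only [utM, h1, h2, dif_neg, if_false, not_false_eq_true, zero_mul]
        exact (mem_BB.1 hb r c h).symm
  rw [← Nat.card_congr (Equiv.ofBijective Ψ hbij), Nat.card_prod, Nat.card_fun, card_pairs, Nat.card_eq_fintype_card (α := F)]

end Count

/-- The homomorphism from `BB` onto the Borel subgroup of `PSL`. -/
def rho (m : ℕ) (F : Type*) [Field F] : BB (m + 1) F →* (pslBN m F).B := (pr m F).subgroupMap (BB (m + 1) F)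

theorem rho_surj : Function.Surjective (rho m F) := (pr m F).subgroupMap_surjective (BB (m + 1) F)

theorem mem_comap_topStab (t : BB (m + 1) F) :
    t ∈ (topStab (pslBN m F) (pr m F (w0 m F))).comap (rho m F) ↔ ∀ r c, r ≠ c → t.1.1 r c = 0 := by
  rw [Subgroup.mem_comap, mem_topStab]
  have e : (pr m F (w0 m F))⁻¹ * ((rho m F t : (pslBN m F).B) : PS m F) * pr m F (w0 m F) = pr m F ((w0 m F)⁻¹ * t.1 * w0 m F) := by
    rw [map_mul, map_mul, map_inv]
    rfl
  rw [e]
  have h1 : pr m F ((w0 m F)⁻¹ * t.1 * w0 m F) ∈ (pslBN m F).B ↔ (w0 m F)⁻¹ * t.1 * w0 m F ∈ BB (m + 1) F :=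
    mem_map_B (slBN m F) (pr m F) ker_le
  rw [h1]
  constructor
  · intro h r c hrc
    by_contra hne
    have hlt : r < c := by
      by_contra hge
      push Not at hge
      exact hne (mem_BB.1 t.2 r c (lt_of_le_of_ne hge (Ne.symm hrc)))
    have h2 := mem_BB.1 h (Fin.revPerm r) (Fin.revPerm c) (by simpa using Fin.rev_lt_rev.2 hlt)
    change ((w0 m F)⁻¹.1 * t.1.1 * (w0 m F).1 : Matrix (Fin (m + 1)) (Fin (m + 1)) F) _ _ = 0 at h2
    rw [mul_mon_apply w0_mon, mon_mul_apply w0_mon.inv] at h2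
    have e1 : (Fin.revPerm : Perm (Fin (m + 1))).symm (Fin.revPerm c) = c := by simp
    have e2 : (Fin.revPerm : Perm (Fin (m + 1)))⁻¹ (Fin.revPerm r) = r := by simp
    rw [e1, e2] at h2
    have h3 : (w0 m F)⁻¹.1 (Fin.revPerm r) r ≠ 0 := by
      have := (w0_mon (m := m) (F := F)).inv.ne (Fin.revPerm r)
      rwa [e2] at this
    have h4 : (w0 m F).1 c (Fin.revPerm c) ≠ 0 := w0_mon.ne c
    exact (mul_ne_zero (mul_ne_zero h3 hne) h4) h2
  · intro h
    apply conj_upper w0_mon
    intro k l hkl hnz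
    exact absurd (h k l hkl) hnz

theorem card_quot_top [Fintype F] :
    Nat.card ((pslBN m F).B ⧸ topStab (pslBN m F) (pr m F (w0 m F))) = Fintype.card F ^ ((m + 1).choose 2) := by
  set D := (topStab (pslBN m F) (pr m F (w0 m F))).comap (rho m F) with hD
  have h1 : Nat.card ((pslBN m F).B ⧸ topStab (pslBN m F) (pr m F (w0 m F))) = D.index :=
    (Subgroup.index_comap_of_surjective _ rho_surj).symm
  rw [h1]
  have h2 := card_BB D (fun t => mem_comap_topStab t)
  have h3 := Subgroup.card_mul_index D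
  rw [h2, mul_comm] at h3
  exact Nat.eq_of_mul_eq_mul_right Nat.card_pos h3

open Cfsg.Agent.Lib.Known.GLFlag in
theorem pow_fact_PSL [Fintype F] (p : ℕ) [hp : Fact p.Prime] [CharP F p] (n : ℕ) (hn : 1 ≤ n) :
    p ^ (Nat.card (Matrix.ProjectiveSpecialLinearGroup (Fin n) F)).factorization p = Fintype.card F ^ (n.choose 2) := by
  classical
  have hpp := hp.out
  set q := Fintype.card F with hq
  obtain ⟨f, hpr, hqf⟩ := FiniteField.card F p
  have hfpos := f.pos
  have hqf' : q = p ^ (f : ℕ) := by rw [hq]; exact hqf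
  have hq1 : 1 ≤ q := Fintype.card_pos
  have hpq : p ∣ q := by rw [hqf']; exact dvd_pow_self p hfpos.ne'
  have hq2 : ¬ p ∣ q - 1 := by
    intro h
    have h6 := Nat.dvd_sub hpq h
    have h7 : q - (q - 1) = 1 := by omega
    rw [h7] at h6
    exact hpp.one_lt.ne' (Nat.dvd_one.mp h6)
  have hQi : ∀ r, 1 ≤ r → ¬ p ∣ Qi q r := by
    intro r hr h
    have h1 := Qi_mul hq1 r
    have h2 : p ∣ q ^ r := hpq.trans (dvd_pow_self q (by omega))
    rw [← h1] at h2
    have h3 : p ∣ (q - 1) * Qi q r := h.trans (dvd_mul_left _ _)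
    have h4 := (Nat.dvd_add_right h3).1 h2
    exact hpp.one_lt.ne' (Nat.dvd_one.mp h4)
  have hQf : ¬ p ∣ Qf q n := by
    unfold Qf
    intro h
    obtain ⟨j, hj, hd⟩ := (Prime.dvd_finset_prod_iff hpp.prime _).1 h
    exact hQi _ (by omega) hd
  have hg : ¬ p ∣ Nat.gcd n (Nat.card F - 1) := by
    intro h
    apply hq2
    have := h.trans (Nat.gcd_dvd_right _ _)
    rwa [Nat.card_eq_fintype_card] at this
  have h1 := Cfsg.Agent.Lib.Classical.card_GL_eq_gcd_mul_card_PSL (F := F) n hn
  rw [Matrix.card_GL_field, prod_GL_eq hq1,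
    Nat.card_eq_fintype_card (α := F)] at h1
  set c := Nat.card (Matrix.ProjectiveSpecialLinearGroup (Fin n) F) with hc
  have hc0 : c ≠ 0 := Nat.card_pos.ne'
  have hfp : ∀ a : ℕ, ¬ p ∣ a → a.factorization p = 0 := fun a ha => Nat.factorization_eq_zero_of_not_dvd ha
  have h2 := congrArg (fun z => z.factorization p) h1
  have hQ0 : Qf q n ≠ 0 := fun h => hQf (h ▸ dvd_zero p)
  have hm0 : q - 1 ≠ 0 := fun h => hq2 (h ▸ dvd_zero p)
  have hg0 : Nat.gcd n (q - 1) ≠ 0 := fun h => hg (by rw [Nat.card_eq_fintype_card, ← hq, h]; exact dvd_zero p)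
  have hq0 : q ≠ 0 := by omega
  change (Qf q n * (q - 1) ^ n * q ^ n.choose 2).factorization p = (Nat.gcd n (q - 1) * ((q - 1) * c)).factorization p at h2
  rw [Nat.factorization_mul (mul_ne_zero hQ0 (pow_ne_zero _ hm0)) (pow_ne_zero _ hq0),
    Nat.factorization_mul hQ0 (pow_ne_zero _ hm0),
    Nat.factorization_mul hg0 (mul_ne_zero hm0 hc0), Nat.factorization_mul hm0 hc0] at h2
  simp only [Finsupp.coe_add, Pi.add_apply] at h2
  rw [hfp _ hQf, Nat.factorization_pow, Nat.factorization_pow] at h2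
  simp only [Finsupp.coe_smul, Pi.smul_apply, smul_eq_mul] at h2
  rw [hfp _ hq2, hfp (Nat.gcd n (q - 1)) (by rwa [Nat.card_eq_fintype_card, ← hq] at hg)] at h2
  have h3 : c.factorization p = (n.choose 2) * (f : ℕ) := by
    rw [hqf', Nat.factorization_pow, hpp.factorization] at h2
    simp at h2
    omega
  rw [h3, hqf', pow_mul']

end Cfsg.Agent.Lib.H14.SLBN
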