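/-
The symplectic group has a monomial (B,N)-pair.
-/
import Mathlib
import Cfsg.Agent.Lib.H14.MonBN
import Cfsg.Agent.Lib.Classical.Symp
import Cfsg.Agent.Lib.Classical.Symp2
import Cfsg.Agent.Lib.Classical.SpTransv

set_option autoImplicit false
set_option linter.unusedVariables false
set_option linter.unusedSectionVars false
set_option linter.style.haveILetI false
set_option linter.unusedSimpArgs false

namespace Cfsg.Agent.Lib.H14.SpBN

open Matrix Equiv Sum
open Cfsg.Agent.Lib.H14.MonBN Cfsg.Agent.Lib.Classical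

variable {k : ℕ} {F : Type*} [Field F]

/-- Indices. -/
abbrev Ix (k : ℕ) := Fin (k + 1) ⊕ Fin (k + 1)

/-- The group. -/
abbrev SpG (k : ℕ) (F : Type*) [Field F] := Matrix.symplecticGroup (Fin (k + 1)) F

/-- The matrix representation. -/
def rho : SpG k F →* Matrix (Ix k) (Ix k) F := (Matrix.symplecticGroup (Fin (k + 1)) F).subtype

@[simp] theorem rho_apply (g : SpG k F) : rho g = g.1 := rfl

/-- The position function: `inl 0 < … < inl k < inr k < … < inr 0`. -/
def pos : Ix k → ℕ
  | inl i => i.val
  | inr i => 2 * k + 1 - i.val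

@[simp] theorem pos_inl (i : Fin (k + 1)) : pos (inl i : Ix k) = i.val := rfl
@[simp] theorem pos_inr (i : Fin (k + 1)) : pos (inr i : Ix k) = 2 * k + 1 - i.val := rfl

theorem pos_inj : Function.Injective (pos : Ix k → ℕ) := by
  rintro (x | x) (y | y) h <;> simp only [pos_inl, pos_inr] at h <;> have := x.2 <;> have := y.2
  · rw [Fin.ext_iff.2 h]
  · omega
  · omega
  · rw [show x = y from Fin.ext (by omega)]

/-- The involution on indices. -/
def bar : Perm (Ix k) := Equiv.sumComm _ _

@[simp] theorem bar_inl (i : Fin (k + 1)) : bar (inl i : Ix k) = inr i := rfl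
@[simp] theorem bar_inr (i : Fin (k + 1)) : bar (inr i : Ix k) = inl i := rfl

theorem pos_bar (x : Ix k) : pos (bar x) + pos x = 2 * k + 1 := by
  rcases x with x | x <;> simp only [bar_inl, bar_inr, pos_inl, pos_inr] <;> have := x.2 <;> omega

theorem bar_bar (x : Ix k) : bar (bar x) = x := by
  rcases x with x | x <;> rfl

/-- The value of `J` at `(x, bar x)`. -/
def Jv (F : Type*) [Field F] (x : Ix k) : F := J (Fin (k + 1)) F x (bar x)

@[simp] theorem Jv_inl (i : Fin (k + 1)) : Jv F (inl i : Ix k) = -1 := by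
  simp [Jv, J]

@[simp] theorem Jv_inr (i : Fin (k + 1)) : Jv F (inr i : Ix k) = 1 := by
  simp [Jv, J]

theorem J_off (x y : Ix k) (h : y ≠ bar x) : J (Fin (k + 1)) F x y = 0 := by
  rcases x with x | x <;> rcases y with y | y
  · simp [J]
  · have : x ≠ y := fun e => h (by rw [e]; rfl)
    simp [J, Matrix.one_apply_ne this]
  · have : x ≠ y := fun e => h (by rw [e]; rfl)
    simp [J, Matrix.one_apply_ne this]
  · simp [J]

theorem Jv_ne (x : Ix k) : Jv F x ≠ 0 := by
  rcases x with x | x <;> simp

theorem J_mw : MW (J (Fin (k + 1)) F) (bar : Perm (Ix k)) := by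
  intro r c
  constructor
  · intro h
    by_contra hc
    exact h (J_off r c hc)
  · rintro rfl
    exact Jv_ne r

/-- The entries of `M J Nᵀ`. -/
theorem J_conj_apply (M N : Matrix (Ix k) (Ix k) F) (r t : Ix k) :
    (M * J (Fin (k + 1)) F * Nᵀ) r t = ∑ x, M r x * Jv F x * N t (bar x) := by
  rw [Matrix.mul_assoc, Matrix.mul_apply]
  apply Finset.sum_congr rfl
  intro x _
  rw [mon_mul_apply (J_mw (F := F) (k := k)) x t, Matrix.transpose_apply, mul_assoc]
  rfl

/-- The defining relation. -/
theorem sp_rel (g : SpG k F) (r t : Ix k) :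
    ∑ x, g.1 r x * Jv F x * g.1 t (bar x) = J (Fin (k + 1)) F r t := by
  rw [← J_conj_apply, SymplecticGroup.mem_iff.1 g.2]

variable {g : SpG k F}

theorem up_diag (hg : g ∈ upB rho pos) (p : Fin (k + 1)) :
    g.1 (inl p) (inl p) * g.1 (inr p) (inr p) = 1 := by
  have h := sp_rel g (inl p) (inr p)
  have h1 : J (Fin (k + 1)) F (inl p) (inr p) = -1 := by simp [J]
  rw [h1, Finset.sum_eq_single (inl p)] at h
  · simp only [Jv_inl, bar_inl] at h
    linear_combination -h
  · intro x _ hx
    have hne : pos x ≠ p.val := fun e => hx (pos_inj (by rw [e]; rfl))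
    have hb := pos_bar x
    by_cases hlt : pos x < p.val
    · have : g.1 (inl p) x = 0 := hg _ _ (by simpa using hlt)
      rw [this]; ring
    · have : g.1 (inr p) (bar x) = 0 := hg _ _ (by simp only [pos_inr]; have := p.2; omega)
      rw [this]; ring
  · simp

theorem up_diag_ne_l (hg : g ∈ upB rho pos) (p : Fin (k + 1)) : g.1 (inl p) (inl p) ≠ 0 :=
  left_ne_zero_of_mul_eq_one (up_diag hg p)

theorem up_diag_ne_r (hg : g ∈ upB rho pos) (p : Fin (k + 1)) : g.1 (inr p) (inr p) ≠ 0 :=
  right_ne_zero_of_mul_eq_one (up_diag hg p)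

theorem up_adj (hg : g ∈ upB rho pos) {a c : Fin (k + 1)} (hac : c.val = a.val + 1)
    (h0 : g.1 (inl a) (inl c) = 0) : g.1 (inr c) (inr a) = 0 := by
  have hne : a ≠ c := by
    rintro rfl
    omega
  have h := sp_rel g (inl a) (inr c)
  have h1 : J (Fin (k + 1)) F (inl a) (inr c) = 0 := by
    apply J_off
    intro e
    exact hne (Sum.inr_injective e).symm
  have hinl : (inl a : Ix k) ≠ inl c := fun e => hne (Sum.inl_injective e)
  rw [h1, Finset.sum_eq_add (inl a) (inl c) hinl] at h
  · simp only [Jv_inl, bar_inl, h0] at h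
    have h2 := up_diag_ne_l hg a
    have : g.1 (inl a) (inl a) * g.1 (inr c) (inr a) = 0 := by linear_combination -h
    exact (mul_eq_zero.1 this).resolve_left h2
  · rintro x _ ⟨hx1, hx2⟩
    have hb := pos_bar x
    by_cases hlt : pos x < a.val
    · have : g.1 (inl a) x = 0 := hg _ _ (by simpa using hlt)
      rw [this]; ring
    · by_cases hgt : c.val < pos x
      · have : g.1 (inr c) (bar x) = 0 := hg _ _ (by simp only [pos_inr]; have := c.2; omega)
        rw [this]; ring
      · exfalso
        have hc := c.2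
        rcases x with x | x
        · simp only [pos_inl] at hlt hgt
          have : x.val = a.val ∨ x.val = c.val := by omega
          rcases this with e | e
          · exact hx1 (by rw [Fin.ext e])
          · exact hx2 (by rw [Fin.ext e])
        · simp only [pos_inr] at hgt
          have := x.2
          omega
  · simp
  · simp

/-! ### Elements -/

theorem mem_xs (a c : Fin (k + 1)) (hac : a ≠ c) (v : F) :
    fromBlocks (transvection a c v) 0 0 (transvection c a (-v)) ∈ Matrix.symplecticGroup (Fin (k + 1)) F := by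
  rw [SymplecticGroup.fromBlocks_mem_iff]
  refine ⟨by simp, by simp, ?_⟩
  have : (transvection a c v)ᵀ = transvection c a v := by
    simp [transvection, Matrix.transpose_add, Matrix.transpose_single]
  simp only [this, Matrix.transpose_zero, Matrix.zero_mul, sub_zero]
  rw [transvection_mul_transvection_same c a hac.symm]
  simp

/-- Short root elements. -/
def xs (a c : Fin (k + 1)) (hac : a ≠ c) (v : F) : SpG k F :=
  ⟨fromBlocks (transvection a c v) 0 0 (transvection c a (-v)), mem_xs a c hac v⟩

theorem xs_add (a c : Fin (k + 1)) (hac : a ≠ c) (u v : F) :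
    xs a c hac u * xs a c hac v = xs a c hac (u + v) := by
  apply Subtype.ext
  change fromBlocks _ _ _ _ * fromBlocks _ _ _ _ = fromBlocks _ _ _ _
  rw [fromBlocks_multiply]
  simp only [Matrix.mul_zero, Matrix.zero_mul, add_zero, zero_add]
  rw [transvection_mul_transvection_same a c hac, transvection_mul_transvection_same c a hac.symm, neg_add]

theorem xs_zero (a c : Fin (k + 1)) (hac : a ≠ c) : xs a c hac (0 : F) = 1 := by
  apply Subtype.ext
  change fromBlocks _ _ _ _ = 1
  simp

/-- Short root groups. -/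
def rootS (a c : Fin (k + 1)) (hac : a ≠ c) : Subgroup (SpG k F) where
  carrier := Set.range (xs a c hac)
  mul_mem' := by
    rintro _ _ ⟨u, rfl⟩ ⟨v, rfl⟩
    exact ⟨u + v, (xs_add a c hac u v).symm⟩
  one_mem' := ⟨0, xs_zero a c hac⟩
  inv_mem' := by
    rintro _ ⟨u, rfl⟩
    refine ⟨-u, ?_⟩
    apply eq_inv_of_mul_eq_one_left
    rw [xs_add, neg_add_cancel, xs_zero]

/-- `E`. -/
def EL (L : Fin (k + 1)) : Matrix (Fin (k + 1)) (Fin (k + 1)) F := Matrix.single L L 1

theorem EL_sq (L : Fin (k + 1)) : (EL L : Matrix _ _ F) * EL L = EL L := by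
  simp [EL, Matrix.single_mul_single_same]

theorem EL_tr (L : Fin (k + 1)) : (EL L : Matrix _ _ F)ᵀ = EL L := by
  simp [EL, Matrix.transpose_single]

theorem mem_xl (L : Fin (k + 1)) (v : F) :
    fromBlocks 1 (v • EL L) 0 1 ∈ Matrix.symplecticGroup (Fin (k + 1)) F := by
  rw [SymplecticGroup.fromBlocks_mem_iff]
  refine ⟨by simp, by simp [EL_tr], by simp⟩

/-- Long root elements. -/
def xl (L : Fin (k + 1)) (v : F) : SpG k F := ⟨fromBlocks 1 (v • EL L) 0 1, mem_xl L v⟩

theorem xl_add (L : Fin (k + 1)) (u v : F) : xl L u * xl L v = xl L (u + v) := by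
  apply Subtype.ext
  change fromBlocks _ _ _ _ * fromBlocks _ _ _ _ = fromBlocks _ _ _ _
  rw [fromBlocks_multiply]
  simp [add_smul, add_comm]

theorem xl_zero (L : Fin (k + 1)) : xl L (0 : F) = 1 := by
  apply Subtype.ext
  change fromBlocks _ _ _ _ = 1
  simp

/-- The long root group. -/
def rootL (L : Fin (k + 1)) : Subgroup (SpG k F) where
  carrier := Set.range (xl L)
  mul_mem' := by
    rintro _ _ ⟨u, rfl⟩ ⟨v, rfl⟩
    exact ⟨u + v, (xl_add L u v).symm⟩
  one_mem' := ⟨0, xl_zero L⟩
  inv_mem' := by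
    rintro _ ⟨u, rfl⟩
    refine ⟨-u, ?_⟩
    apply eq_inv_of_mul_eq_one_left
    rw [xl_add, neg_add_cancel, xl_zero]

/-- Permutation matrices. -/
def PM (τ : Perm (Fin (k + 1))) : Matrix (Fin (k + 1)) (Fin (k + 1)) F :=
  Matrix.of fun r s => if s = τ r then 1 else 0

theorem PM_apply (τ : Perm (Fin (k + 1))) (r s : Fin (k + 1)) :
    (PM τ : Matrix _ _ F) r s = if s = τ r then 1 else 0 := rfl

theorem PM_mul (τ : Perm (Fin (k + 1))) (M : Matrix (Fin (k + 1)) (Fin (k + 1)) F) (r s : Fin (k + 1)) :
    (PM τ * M : Matrix _ _ F) r s = M (τ r) s := by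
  rw [Matrix.mul_apply, Finset.sum_eq_single (τ r)]
  · simp [PM_apply]
  · intro y _ hy
    simp [PM_apply, hy]
  · simp

theorem PM_tr_mul (τ : Perm (Fin (k + 1))) : (PM τ : Matrix _ _ F)ᵀ * PM τ = 1 := by
  ext r s
  rw [Matrix.mul_apply, Finset.sum_eq_single (τ⁻¹ r)]
  · have h1 : τ (τ⁻¹ r) = r := by simp
    simp only [Matrix.transpose_apply, PM_apply, h1, if_true, one_mul]
    by_cases h : r = s
    · subst h; simp
    · rw [Matrix.one_apply_ne h, if_neg (Ne.symm h)]
  · intro y _ hy
    rw [Matrix.transpose_apply, PM_apply, if_neg, zero_mul]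
    intro e
    apply hy
    rw [e]; simp
  · simp

theorem mem_sP (τ : Perm (Fin (k + 1))) :
    fromBlocks (PM τ) 0 0 (PM τ) ∈ Matrix.symplecticGroup (Fin (k + 1)) F := by
  rw [SymplecticGroup.fromBlocks_mem_iff]
  refine ⟨by simp, by simp, by simp [PM_tr_mul]⟩

/-- Block permutation elements. -/
def sP (τ : Perm (Fin (k + 1))) : SpG k F := ⟨fromBlocks (PM τ) 0 0 (PM τ), mem_sP τ⟩

theorem mem_sL (L : Fin (k + 1)) :
    fromBlocks (1 - EL L) (EL L) (-EL L) (1 - EL L) ∈ Matrix.symplecticGroup (Fin (k + 1)) F := by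
  rw [SymplecticGroup.fromBlocks_mem_iff]
  simp only [Matrix.transpose_sub, Matrix.transpose_one, EL_tr, Matrix.transpose_neg]
  refine ⟨by noncomm_ring, by noncomm_ring, ?_⟩
  have h : (EL L : Matrix _ _ F) * EL L = EL L := EL_sq L
  have : (1 - EL L) * (1 - EL L) - (-EL L) * (EL L : Matrix _ _ F) = 1 - EL L - EL L + EL L * EL L + EL L * EL L := by
    noncomm_ring
  rw [this, h]
  abel

/-- The long reflection. -/
def sL (L : Fin (k + 1)) : SpG k F := ⟨fromBlocks (1 - EL L) (EL L) (-EL L) (1 - EL L), mem_sL L⟩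

/-! ### Monomial data -/

/-- Lift of a permutation. -/
def lift (τ : Perm (Fin (k + 1))) : Perm (Ix k) := Equiv.sumCongr τ τ

@[simp] theorem lift_inl (τ : Perm (Fin (k + 1))) (x : Fin (k + 1)) : lift τ (inl x) = inl (τ x) := rfl
@[simp] theorem lift_inr (τ : Perm (Fin (k + 1))) (x : Fin (k + 1)) : lift τ (inr x) = inr (τ x) := rfl

theorem lift_mul (τ τ' : Perm (Fin (k + 1))) : lift (τ * τ') = lift τ * lift τ' := by
  ext x
  rcases x with x | x <;> rfl

theorem lift_one : lift (1 : Perm (Fin (k + 1))) = 1 := by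
  ext x
  rcases x with x | x <;> rfl

theorem sP_mw (τ : Perm (Fin (k + 1))) : MW (sP τ : SpG k F).1 (lift τ) := by
  intro r c
  rcases r with r | r <;> rcases c with c | c
  · change (PM τ : Matrix _ _ F) r c ≠ 0 ↔ _
    rw [PM_apply, lift_inl]
    by_cases h : c = τ r <;> simp [h]
  · change (0 : Matrix _ _ F) r c ≠ 0 ↔ _
    simp
  · change (0 : Matrix _ _ F) r c ≠ 0 ↔ _
    simp
  · change (PM τ : Matrix _ _ F) r c ≠ 0 ↔ _
    rw [PM_apply, lift_inr]
    by_cases h : c = τ r <;> simp [h]

theorem EL_apply (L r s : Fin (k + 1)) : (EL L : Matrix _ _ F) r s = if r = L ∧ s = L then 1 else 0 := by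
  have : (L = r ∧ L = s) ↔ (r = L ∧ s = L) := by
    constructor <;> rintro ⟨rfl, rfl⟩ <;> simp
  simp only [EL, Matrix.single_apply, this]

theorem sL_mw (L : Fin (k + 1)) : MW (sL L : SpG k F).1 (swap (inl L) (inr L)) := by
  intro r c
  rcases r with r | r <;> rcases c with c | c
  · change (((1 : Matrix _ _ F) - EL L : Matrix (Fin (k + 1)) (Fin (k + 1)) F)) r c ≠ 0 ↔ _
    rw [Matrix.sub_apply, EL_apply]
    by_cases h : r = L
    · subst h
      rw [swap_apply_left]
      by_cases h2 : c = r
      · subst h2; simp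
      · simp [h2, Ne.symm h2, Matrix.one_apply_ne]
    · rw [swap_apply_of_ne_of_ne (by simpa using h) (by simp)]
      by_cases h2 : r = c
      · subst h2; simp [h]
      · simp [h, h2, Matrix.one_apply_ne h2, Ne.symm h2]
  · change (EL L : Matrix _ _ F) r c ≠ 0 ↔ _
    rw [EL_apply]
    by_cases h : r = L
    · subst h
      rw [swap_apply_left]
      by_cases h2 : c = r
      · subst h2; simp
      · simp [h2]
    · rw [swap_apply_of_ne_of_ne (by simpa using h) (by simp)]
      simp [h]
  · change (-(EL L) : Matrix _ _ F) r c ≠ 0 ↔ _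
    rw [Matrix.neg_apply, EL_apply]
    by_cases h : r = L
    · subst h
      rw [swap_apply_right]
      by_cases h2 : c = r
      · subst h2; simp
      · simp [h2]
    · rw [swap_apply_of_ne_of_ne (by simp) (by simpa using h)]
      simp [h]
  · change (((1 : Matrix _ _ F) - EL L : Matrix (Fin (k + 1)) (Fin (k + 1)) F)) r c ≠ 0 ↔ _
    rw [Matrix.sub_apply, EL_apply]
    by_cases h : r = L
    · subst h
      rw [swap_apply_right]
      by_cases h2 : c = r
      · subst h2; simp
      · simp [h2, Ne.symm h2, Matrix.one_apply_ne]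
    · rw [swap_apply_of_ne_of_ne (by simp) (by simpa using h)]
      by_cases h2 : r = c
      · subst h2; simp [h]
      · simp [h, h2, Matrix.one_apply_ne h2, Ne.symm h2]

/-! ### The relation `R` -/

theorem Q_off (a c : Fin (k + 1)) (hac : a ≠ c) {u : F} (hu : u ≠ 0) (r s : Fin (k + 1)) (hrs : r ≠ s)
    (h : (transvection a c (-u⁻¹) * PM (swap a c) * transvection a c u : Matrix (Fin (k + 1)) (Fin (k + 1)) F) r s ≠ 0) : r = c ∧ s = a := by
  have hN : ∀ r s, (PM (swap a c) * transvection a c u : Matrix _ _ F) r s =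
      if s = c then (PM (swap a c) : Matrix _ _ F) r c + u * (PM (swap a c) : Matrix _ _ F) r a
      else (PM (swap a c) : Matrix _ _ F) r s := by
    intro r s
    by_cases hs : s = c
    · subst hs
      rw [if_pos rfl, Matrix.mul_transvection_apply_same]
    · rw [if_neg hs, Matrix.mul_transvection_apply_of_ne _ _ _ _ hs]
  rw [Matrix.mul_assoc] at h
  by_cases hr : r = a
  · subst hr
    rw [Matrix.transvection_mul_apply_same, hN, hN] at h
    exfalso
    apply h
    by_cases hs : s = c
    · subst hs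
      simp [PM_apply, hac, Ne.symm hac, hu]
    · simp [PM_apply, hs, Ne.symm hrs, hac, Ne.symm hac]
  · rw [Matrix.transvection_mul_apply_of_ne _ _ _ _ hr, hN] at h
    by_cases hs : s = c
    · subst hs
      rw [if_pos rfl] at h
      exfalso
      apply h
      have h1 : swap a s r ≠ s := by
        intro e
        apply hr
        have := congrArg (swap a s) e
        simpa using this
      have h2 : swap a s r ≠ a := by
        intro e
        apply hrs
        have := congrArg (swap a s) e
        simpa using this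
      simp [PM_apply, Ne.symm h1, Ne.symm h2]
    · rw [if_neg hs] at h
      by_cases hrc : r = c
      · subst hrc
        refine ⟨rfl, ?_⟩
        by_contra hsa
        apply h
        simp [PM_apply, hsa]
      · exfalso
        apply h
        rw [PM_apply, swap_apply_of_ne_of_ne hr hrc, if_neg (Ne.symm hrs)]

theorem xs_s_xs_coe (a c : Fin (k + 1)) (hac : a ≠ c) (u v : F) :
    (xs a c hac u * sP (swap a c) * xs a c hac v : SpG k F).1 =
      fromBlocks (transvection a c u * PM (swap a c) * transvection a c v) 0 0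
        (transvection c a (-u) * PM (swap a c) * transvection c a (-v)) := by
  change fromBlocks _ _ _ _ * fromBlocks _ _ _ _ * fromBlocks _ _ _ _ = _
  simp only [fromBlocks_multiply, Matrix.mul_zero, Matrix.zero_mul, add_zero, zero_add]

theorem xl_s_xl_coe (L : Fin (k + 1)) (u v : F) :
    (xl L u * sL L * xl L v : SpG k F).1 =
      fromBlocks (1 - (1 + u) • EL L) ((1 - u * v) • EL L) (-EL L) (1 - (1 + v) • EL L) := by
  change fromBlocks _ _ _ _ * fromBlocks _ _ _ _ * fromBlocks _ _ _ _ = _
  simp only [fromBlocks_multiply, Matrix.mul_zero, Matrix.zero_mul, add_zero, zero_add, Matrix.mul_one,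
    Matrix.one_mul, Matrix.mul_sub, Matrix.sub_mul, Matrix.mul_neg, Matrix.neg_mul, Matrix.smul_mul,
    Matrix.mul_smul, EL_sq]
  congr 1 <;> (try simp only [Matrix.add_mul, Matrix.sub_mul, Matrix.neg_mul, Matrix.one_mul, Matrix.zero_mul,
    Matrix.smul_mul, EL_sq, sub_zero]) <;> module

/-! ### Entries -/

theorem tr_apply (a c r s : Fin (k + 1)) (v : F) :
    (transvection a c v : Matrix _ _ F) r s = (1 : Matrix _ _ F) r s + if r = a ∧ s = c then v else 0 := by
  simp only [transvection, Matrix.add_apply, Matrix.single_apply]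
  by_cases h1 : a = r <;> by_cases h2 : c = s <;> simp [h1, h2, eq_comm]

theorem xs_ll (a c : Fin (k + 1)) (hac : a ≠ c) (v : F) (r s : Fin (k + 1)) :
    (xs a c hac v : SpG k F).1 (inl r) (inl s) = (transvection a c v : Matrix _ _ F) r s := rfl
theorem xs_lr (a c : Fin (k + 1)) (hac : a ≠ c) (v : F) (r s : Fin (k + 1)) :
    (xs a c hac v : SpG k F).1 (inl r) (inr s) = 0 := rfl
theorem xs_rl (a c : Fin (k + 1)) (hac : a ≠ c) (v : F) (r s : Fin (k + 1)) :
    (xs a c hac v : SpG k F).1 (inr r) (inl s) = 0 := rfl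
theorem xs_rr (a c : Fin (k + 1)) (hac : a ≠ c) (v : F) (r s : Fin (k + 1)) :
    (xs a c hac v : SpG k F).1 (inr r) (inr s) = (transvection c a (-v) : Matrix _ _ F) r s := rfl

theorem xl_ll (L : Fin (k + 1)) (v : F) (r s : Fin (k + 1)) :
    (xl L v : SpG k F).1 (inl r) (inl s) = (1 : Matrix _ _ F) r s := rfl
theorem xl_lr (L : Fin (k + 1)) (v : F) (r s : Fin (k + 1)) :
    (xl L v : SpG k F).1 (inl r) (inr s) = if r = L ∧ s = L then v else 0 := by
  change (v • EL L : Matrix _ _ F) r s = _
  rw [Matrix.smul_apply, EL_apply]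
  split_ifs <;> simp
theorem xl_rl (L : Fin (k + 1)) (v : F) (r s : Fin (k + 1)) :
    (xl L v : SpG k F).1 (inr r) (inl s) = 0 := rfl
theorem xl_rr (L : Fin (k + 1)) (v : F) (r s : Fin (k + 1)) :
    (xl L v : SpG k F).1 (inr r) (inr s) = (1 : Matrix _ _ F) r s := rfl

theorem xs_up {a c : Fin (k + 1)} (hac : a ≠ c) (hlt : a.val < c.val) (v : F) : xs a c hac v ∈ upB rho pos := by
  intro r s hrs
  rw [rho_apply]
  rcases r with r | r <;> rcases s with s | s
  · rw [xs_ll, tr_apply]
    simp only [pos_inl] at hrs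
    have h1 : r ≠ s := by
      rintro rfl
      omega
    rw [Matrix.one_apply_ne h1, if_neg]
    · simp
    · rintro ⟨rfl, rfl⟩
      omega
  · rfl
  · rfl
  · rw [xs_rr, tr_apply]
    simp only [pos_inr] at hrs
    have := r.2
    have := s.2
    have h1 : r ≠ s := by
      rintro rfl
      omega
    rw [Matrix.one_apply_ne h1, if_neg]
    · simp
    · rintro ⟨rfl, rfl⟩
      omega

theorem xl_up (L : Fin (k + 1)) (v : F) : xl L v ∈ upB rho pos := by
  intro r s hrs
  rw [rho_apply]
  rcases r with r | r <;> rcases s with s | s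
  · rw [xl_ll]
    simp only [pos_inl] at hrs
    have h1 : r ≠ s := by
      rintro rfl
      omega
    rw [Matrix.one_apply_ne h1]
  · simp only [pos_inl, pos_inr] at hrs
    have := r.2
    have := s.2
    omega
  · rfl
  · rw [xl_rr]
    simp only [pos_inr] at hrs
    have := r.2
    have := s.2
    have h1 : r ≠ s := by
      rintro rfl
      omega
    rw [Matrix.one_apply_ne h1]

theorem mul_xs_col {a c : Fin (k + 1)} (hac : a ≠ c) (t : F) (M : Matrix (Ix k) (Ix k) F) (r : Ix k) :
    (M * (xs a c hac t : SpG k F).1) r (inl c) = M r (inl c) + M r (inl a) * t := by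
  have hinl : (inl c : Ix k) ≠ inl a := fun e => hac (Sum.inl_injective e).symm
  rw [Matrix.mul_apply, Finset.sum_eq_add (inl c) (inl a) hinl]
  · rw [xs_ll, xs_ll, tr_apply, tr_apply]
    simp [hac, Ne.symm hac]
  · rintro x _ ⟨hx1, hx2⟩
    rcases x with x | x
    · rw [xs_ll, tr_apply]
      have h1 : x ≠ c := fun e => hx1 (by rw [e])
      have h2 : x ≠ a := fun e => hx2 (by rw [e])
      simp [h1, h2]
    · rw [xs_rl, mul_zero]
  · simp
  · simp

theorem mul_xl_col (L : Fin (k + 1)) (t : F) (M : Matrix (Ix k) (Ix k) F) (r : Ix k) :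
    (M * (xl L t : SpG k F).1) r (inr L) = M r (inr L) + M r (inl L) * t := by
  have hinl : (inr L : Ix k) ≠ inl L := by simp
  rw [Matrix.mul_apply, Finset.sum_eq_add (inr L) (inl L) hinl]
  · rw [xl_rr, xl_lr]
    simp
  · rintro x _ ⟨hx1, hx2⟩
    rcases x with x | x
    · rw [xl_lr, if_neg, mul_zero]
      rintro ⟨rfl, -⟩
      exact hx2 rfl
    · rw [xl_rr, Matrix.one_apply_ne, mul_zero]
      rintro rfl
      exact hx1 rfl
  · simp
  · simp

/-- Monomial symplectic permutations commute with `bar`. -/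
theorem mon_bar {g : SpG k F} {σ : Perm (Ix k)} (hσ : MW g.1 σ) (x : Ix k) : σ (bar x) = bar (σ x) := by
  by_contra hne
  have h := sp_rel g x (bar x)
  have h1 : J (Fin (k + 1)) F x (bar x) ≠ 0 := Jv_ne x
  rw [← h] at h1
  apply h1
  apply Finset.sum_eq_zero
  intro y _
  by_cases hy : y = σ x
  · subst hy
    have : g.1 (bar x) (bar (σ x)) = 0 := hσ.eq_zero (Ne.symm hne)
    rw [this, mul_zero]
  · rw [hσ.eq_zero hy]
    ring

/-! ### The data -/

theorem cs_ne (i : Fin k) : i.castSucc ≠ i.succ := by
  intro h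
  have := congrArg Fin.val h
  simp at this

/-- The permutations. -/
def piD : Option (Fin k) → Perm (Ix k)
  | some i => lift (swap i.castSucc i.succ)
  | none => swap (inl (Fin.last k)) (inr (Fin.last k))

/-- The reflections. -/
def sD : Option (Fin k) → SpG k F
  | some i => sP (swap i.castSucc i.succ)
  | none => sL (Fin.last k)

/-- The root groups. -/
def XD : Option (Fin k) → Subgroup (SpG k F)
  | some i => rootS i.castSucc i.succ (cs_ne i)
  | none => rootL (Fin.last k)

/-- The root positions. -/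
def DD : Option (Fin k) → Ix k → Ix k → Prop
  | some i, p, q => (p = inl i.castSucc ∧ q = inl i.succ) ∨ (p = inr i.succ ∧ q = inr i.castSucc)
  | none, p, q => p = inl (Fin.last k) ∧ q = inr (Fin.last k)

theorem piD_inj : Function.Injective (piD : Option (Fin k) → Perm (Ix k)) := by
  have key : ∀ i j : Fin k, lift (swap i.castSucc i.succ) = lift (swap j.castSucc j.succ) → i = j := by
    intro i j h
    have h1 := congrArg (fun f : Perm (Ix k) => f (inl i.castSucc)) h
    simp only [lift_inl, swap_apply_left] at h1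
    have h2 := Sum.inl_injective h1
    rw [swap_apply_def] at h2
    have hv : ∀ x y : Fin (k + 1), x = y ↔ x.val = y.val := fun x y => Fin.ext_iff
    have h0 : ∀ j : Fin k, (j.castSucc : Fin (k + 1)).val = j.val := fun _ => rfl
    have h1 : ∀ j : Fin k, (j.succ : Fin (k + 1)).val = j.val + 1 := fun _ => rfl
    apply Fin.ext
    split_ifs at h2 with h3 h4
    · exact (hv _ _).1 h3 |>.trans (h0 j) |>.symm.trans (h0 i).symm |>.symm
    · have e1 := (hv _ _).1 h4
      have e2 := (hv _ _).1 h2
      simp only [h0, h1] at e1 e2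
      omega
    · have e2 := (hv _ _).1 h2
      simp only [h0, h1] at e2
      omega
  rintro (_ | i) (_ | j) h
  · rfl
  · exfalso
    have h1 := congrArg (fun f : Perm (Ix k) => f (inl (Fin.last k))) h
    simp [piD] at h1
  · exfalso
    have h1 := congrArg (fun f : Perm (Ix k) => f (inl (Fin.last k))) h
    simp [piD] at h1
  · rw [key i j h]

theorem DD_lt (i : Option (Fin k)) (p q : Ix k) (h : DD i p q) : pos p < pos q := by
  rcases i with _ | i
  · obtain ⟨rfl, rfl⟩ := h
    simp only [pos_inl, pos_inr, Fin.val_last]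
    omega
  · rcases h with ⟨rfl, rfl⟩ | ⟨rfl, rfl⟩
    · simp
    · simp only [pos_inr, Fin.val_castSucc, Fin.val_succ]
      have := i.2
      omega

theorem DD_rev (i : Option (Fin k)) (p q : Ix k) (h : DD i p q) : pos (piD i q) < pos (piD i p) := by
  rcases i with _ | i
  · obtain ⟨rfl, rfl⟩ := h
    simp only [piD, swap_apply_left, swap_apply_right, pos_inl, pos_inr, Fin.val_last]
    omega
  · rcases h with ⟨rfl, rfl⟩ | ⟨rfl, rfl⟩
    · simp [piD]
    · simp only [piD, lift_inr, swap_apply_left, swap_apply_right, pos_inr, Fin.val_castSucc, Fin.val_succ]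
      have := i.2
      omega

theorem DD_inv (i : Option (Fin k)) (p q : Ix k) (hlt : pos p < pos q) (hD : ¬ DD i p q) :
    pos (piD i p) < pos (piD i q) := by
  rcases i with _ | i
  · have hL : (Fin.last k).val = k := rfl
    have key : ∀ y : Ix k, y ≠ inl (Fin.last k) → y ≠ inr (Fin.last k) → pos y ≠ k ∧ pos y ≠ k + 1 := by
      intro y h1 h2
      constructor
      · intro e
        exact h1 (pos_inj (by rw [e]; rfl))
      · intro e
        apply h2
        apply pos_inj
        rw [e, pos_inr, hL]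
        omega
    have hpl : pos (inl (Fin.last k) : Ix k) = k := rfl
    have hpr : pos (inr (Fin.last k) : Ix k) = k + 1 := by
      rw [pos_inr, hL]
      omega
    simp only [piD]
    by_cases h1 : p = inl (Fin.last k)
    · subst h1
      rw [swap_apply_left, hpr]
      rw [hpl] at hlt
      have hq : q ≠ inr (Fin.last k) := fun e => hD ⟨rfl, e⟩
      have hq' : q ≠ inl (Fin.last k) := by
        rintro rfl
        omega
      rw [swap_apply_of_ne_of_ne hq' hq]
      have := key q hq' hq
      omega
    · by_cases h2 : p = inr (Fin.last k)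
      · subst h2
        rw [swap_apply_right, hpl]
        rw [hpr] at hlt
        by_cases hq' : q = inl (Fin.last k)
        · subst hq'
          omega
        · by_cases hq : q = inr (Fin.last k)
          · subst hq
            omega
          · rw [swap_apply_of_ne_of_ne hq' hq]
            omega
      · rw [swap_apply_of_ne_of_ne h1 h2]
        have := key p h1 h2
        by_cases hq' : q = inl (Fin.last k)
        · subst hq'
          rw [swap_apply_left, hpr]
          rw [hpl] at hlt
          omega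
        · by_cases hq : q = inr (Fin.last k)
          · subst hq
            rw [swap_apply_right, hpl]
            rw [hpr] at hlt
            omega
          · rw [swap_apply_of_ne_of_ne hq' hq]
            exact hlt
  · simp only [piD]
    rcases p with x | x <;> rcases q with y | y
    · simp only [pos_inl, lift_inl] at hlt ⊢
      apply SLBN.swap_order i hlt
      rintro ⟨rfl, rfl⟩
      exact hD (Or.inl ⟨rfl, rfl⟩)
    · simp only [pos_inl, lift_inl, lift_inr, pos_inr]
      have := (swap i.castSucc i.succ x).2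
      have := (swap i.castSucc i.succ y).2
      omega
    · simp only [pos_inl, pos_inr] at hlt
      have := x.2
      have := y.2
      omega
    · simp only [pos_inr, lift_inr] at hlt ⊢
      have hyx : y < x := by
        have := x.2
        have := y.2
        rw [Fin.lt_def]
        omega
      have := SLBN.swap_order i hyx (by
        rintro ⟨rfl, rfl⟩
        exact hD (Or.inr ⟨rfl, rfl⟩))
      have h3 : (swap i.castSucc i.succ y).val < (swap i.castSucc i.succ x).val := this
      have := (swap i.castSucc i.succ x).2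
      omega

theorem XD_supp (i : Option (Fin k)) (x : SpG k F) (hx : x ∈ XD i) (p q : Ix k) (hpq : p ≠ q)
    (h : rho x p q ≠ 0) : DD i p q := by
  rcases i with _ | i
  · obtain ⟨v, rfl⟩ := hx
    rw [rho_apply] at h
    rcases p with r | r <;> rcases q with s | s
    · rw [xl_ll, Matrix.one_apply_ne (fun e => hpq (by rw [e]))] at h
      exact absurd rfl h
    · rw [xl_lr] at h
      by_cases hc : r = Fin.last k ∧ s = Fin.last k
      · rw [hc.1, hc.2]
        exact ⟨rfl, rfl⟩
      · rw [if_neg hc] at h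
        exact absurd rfl h
    · exact absurd (xl_rl _ _ _ _) h
    · rw [xl_rr, Matrix.one_apply_ne (fun e => hpq (by rw [e]))] at h
      exact absurd rfl h
  · obtain ⟨v, rfl⟩ := hx
    rw [rho_apply] at h
    rcases p with r | r <;> rcases q with s | s
    · rw [xs_ll, tr_apply, Matrix.one_apply_ne (fun e => hpq (by rw [e])), zero_add] at h
      by_cases hc : r = i.castSucc ∧ s = i.succ
      · rw [hc.1, hc.2]
        exact Or.inl ⟨rfl, rfl⟩
      · rw [if_neg hc] at h
        exact absurd rfl h
    · exact absurd (xs_lr _ _ _ _ _ _) h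
    · exact absurd (xs_rl _ _ _ _ _ _) h
    · rw [xs_rr, tr_apply, Matrix.one_apply_ne (fun e => hpq (by rw [e])), zero_add] at h
      by_cases hc : r = i.succ ∧ s = i.castSucc
      · rw [hc.1, hc.2]
        exact Or.inr ⟨rfl, rfl⟩
      · rw [if_neg hc] at h
        exact absurd rfl h

theorem XD_diag (i : Option (Fin k)) (x : SpG k F) (hx : x ∈ XD i) (p : Ix k) : rho x p p = 1 := by
  rcases i with _ | i
  · obtain ⟨v, rfl⟩ := hx
    rw [rho_apply]
    rcases p with r | r
    · rw [xl_ll, Matrix.one_apply_eq]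
    · rw [xl_rr, Matrix.one_apply_eq]
  · obtain ⟨v, rfl⟩ := hx
    rw [rho_apply]
    have h1 := cs_ne i
    rcases p with r | r
    · rw [xs_ll, tr_apply, Matrix.one_apply_eq, if_neg, add_zero]
      rintro ⟨rfl, h⟩
      exact h1 h
    · rw [xs_rr, tr_apply, Matrix.one_apply_eq, if_neg, add_zero]
      rintro ⟨rfl, h⟩
      exact h1 h.symm

theorem XD_fact (i : Option (Fin k)) (b : SpG k F) (hb : b ∈ upB rho pos) :
    ∃ x ∈ XD i, ∀ p q, DD i p q → rho (b * x) p q = 0 := by
  rcases i with _ | i
  · have h0 := up_diag_ne_l hb (Fin.last k)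
    refine ⟨xl _ (-(b.1 (inl (Fin.last k)) (inr (Fin.last k))) / b.1 (inl (Fin.last k)) (inl (Fin.last k))), ⟨_, rfl⟩, ?_⟩
    rintro _ _ ⟨rfl, rfl⟩
    rw [map_mul, rho_apply, rho_apply, mul_xl_col]
    field_simp
    ring
  · have hlt : (i.castSucc).val < (i.succ).val := by simp
    have h0 := up_diag_ne_l hb i.castSucc
    set t : F := -(b.1 (inl i.castSucc) (inl i.succ)) / b.1 (inl i.castSucc) (inl i.castSucc) with ht
    have hy : b * xs _ _ (cs_ne i) t ∈ upB rho pos := mul_mem hb (xs_up (cs_ne i) hlt t)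
    have h1 : (b * xs _ _ (cs_ne i) t).1 (inl i.castSucc) (inl i.succ) = 0 := by
      change (b.1 * (xs _ _ (cs_ne i) t).1) _ _ = 0
      rw [mul_xs_col, ht]
      field_simp
      ring
    have h2 := up_adj hy (a := i.castSucc) (c := i.succ) (by simp) h1
    refine ⟨xs _ _ (cs_ne i) t, ⟨_, rfl⟩, ?_⟩
    rintro _ _ (⟨rfl, rfl⟩ | ⟨rfl, rfl⟩)
    · exact h1
    · exact h2

theorem XD_R (i : Option (Fin k)) (x : SpG k F) (hx : x ∈ XD i) (hne : x ≠ 1) :
    ∃ x' ∈ XD i, ∀ p q, p ≠ q → rho (x' * sD i * x) p q ≠ 0 → DD i q p := by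
  rcases i with _ | i
  · obtain ⟨v, rfl⟩ := hx
    have hv : v ≠ 0 := by
      rintro rfl
      exact hne (xl_zero _)
    refine ⟨xl _ v⁻¹, ⟨_, rfl⟩, ?_⟩
    intro p q hpq h
    rw [rho_apply] at h
    change (xl _ v⁻¹ * sL _ * xl _ v : SpG k F).1 p q ≠ 0 at h
    rw [xl_s_xl_coe, inv_mul_cancel₀ hv, sub_self, zero_smul] at h
    rcases p with r | r <;> rcases q with s | s
    · exfalso
      apply h
      have hrs : r ≠ s := fun e => hpq (by rw [e])
      rw [fromBlocks_apply₁₁, Matrix.sub_apply, Matrix.smul_apply, EL_apply,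
        Matrix.one_apply_ne hrs, if_neg]
      · simp
      · rintro ⟨h1, h2⟩
        exact hrs (h1.trans h2.symm)
    · exact absurd (by rw [fromBlocks_apply₁₂]; rfl) h
    · rw [fromBlocks_apply₂₁, Matrix.neg_apply, EL_apply] at h
      by_cases hc : r = Fin.last k ∧ s = Fin.last k
      · rw [hc.1, hc.2]
        exact ⟨rfl, rfl⟩
      · rw [if_neg hc] at h
        exact absurd (by simp) h
    · exfalso
      apply h
      have hrs : r ≠ s := fun e => hpq (by rw [e])
      rw [fromBlocks_apply₂₂, Matrix.sub_apply, Matrix.smul_apply, EL_apply,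
        Matrix.one_apply_ne hrs, if_neg]
      · simp
      · rintro ⟨h1, h2⟩
        exact hrs (h1.trans h2.symm)
  · obtain ⟨v, rfl⟩ := hx
    have hv : v ≠ 0 := by
      rintro rfl
      exact hne (xs_zero _ _ _)
    refine ⟨xs _ _ (cs_ne i) (-v⁻¹), ⟨_, rfl⟩, ?_⟩
    intro p q hpq h
    rw [rho_apply] at h
    change (xs _ _ (cs_ne i) (-v⁻¹) * sP _ * xs _ _ (cs_ne i) v : SpG k F).1 p q ≠ 0 at h
    rw [xs_s_xs_coe] at h
    rcases p with r | r <;> rcases q with s | s
    · rw [fromBlocks_apply₁₁] at h
      have hrs : r ≠ s := fun e => hpq (by rw [e])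
      obtain ⟨rfl, rfl⟩ := Q_off _ _ (cs_ne i) hv r s hrs h
      exact Or.inl ⟨rfl, rfl⟩
    · exact absurd (by rw [fromBlocks_apply₁₂]; rfl) h
    · exact absurd (by rw [fromBlocks_apply₂₁]; rfl) h
    · rw [fromBlocks_apply₂₂] at h
      have hrs : r ≠ s := fun e => hpq (by rw [e])
      have hv' : -v ≠ 0 := neg_ne_zero.2 hv
      have e1 : - -v⁻¹ = -(-v)⁻¹ := by rw [inv_neg]
      rw [e1, Equiv.swap_comm] at h
      obtain ⟨rfl, rfl⟩ := Q_off _ _ (cs_ne i).symm hv' r s hrs h
      exact Or.inr ⟨rfl, rfl⟩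

theorem XD_dich (i : Option (Fin k)) (g : SpG k F) (σ : Perm (Ix k)) (hσ : MW (rho g) σ) :
    (∀ p q, DD i p q → pos (σ p) < pos (σ q)) ∨ (∀ p q, DD i p q → pos (σ q) < pos (σ p)) := by
  have hinj : ∀ x y : Ix k, x ≠ y → pos (σ x) ≠ pos (σ y) := by
    intro x y hxy e
    exact hxy (σ.injective (pos_inj e))
  rcases i with _ | i
  · rcases lt_or_gt_of_ne (hinj (inl (Fin.last k)) (inr (Fin.last k)) (by simp)) with h | h
    · left
      rintro _ _ ⟨rfl, rfl⟩
      exact h
    · right
      rintro _ _ ⟨rfl, rfl⟩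
      exact h
  · have hb := mon_bar (g := g) (σ := σ) hσ
    have h1 : pos (σ (inr i.succ)) + pos (σ (inl i.succ)) = 2 * k + 1 := by
      have := hb (inl i.succ)
      rw [bar_inl] at this
      rw [this, pos_bar]
    have h2 : pos (σ (inr i.castSucc)) + pos (σ (inl i.castSucc)) = 2 * k + 1 := by
      have := hb (inl i.castSucc)
      rw [bar_inl] at this
      rw [this, pos_bar]
    have hne : (inl i.castSucc : Ix k) ≠ inl i.succ := fun e => cs_ne i (Sum.inl_injective e)
    rcases lt_or_gt_of_ne (hinj _ _ hne) with h | h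
    · left
      rintro _ _ (⟨rfl, rfl⟩ | ⟨rfl, rfl⟩)
      · exact h
      · omega
    · right
      rintro _ _ (⟨rfl, rfl⟩ | ⟨rfl, rfl⟩)
      · exact h
      · omega

theorem XD_ne (i : Option (Fin k)) : ∃ x ∈ XD (F := F) i, ∃ p q, DD i p q ∧ rho x p q ≠ 0 := by
  rcases i with _ | i
  · refine ⟨xl _ 1, ⟨_, rfl⟩, inl (Fin.last k), inr (Fin.last k), ⟨rfl, rfl⟩, ?_⟩
    rw [rho_apply, xl_lr]
    simp
  · refine ⟨xs _ _ (cs_ne i) 1, ⟨_, rfl⟩, inl i.castSucc, inl i.succ, Or.inl ⟨rfl, rfl⟩, ?_⟩
    rw [rho_apply, xs_ll, tr_apply, Matrix.one_apply_ne (cs_ne i)]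
    simp

/-! ### The Weyl group -/

/-- The closure. -/
abbrev WW (k : ℕ) : Submonoid (Perm (Ix k)) := Submonoid.closure (Set.range (piD (k := k)))

theorem lift_mem (τ : Perm (Fin (k + 1))) : lift τ ∈ WW k := by
  have h : τ ∈ Submonoid.closure (Set.range fun i : Fin (k + 1 - 1) => (swap i.castSucc i.succ : Perm (Fin (k + 1 - 1 + 1)))) := by
    rw [Equiv.Perm.mclosure_swap_castSucc_succ]
    trivial
  induction h using Submonoid.closure_induction with
  | mem x hx =>
    obtain ⟨i, rfl⟩ := hx
    exact Submonoid.subset_closure ⟨some i, rfl⟩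
  | one =>
    rw [lift_one]
    exact one_mem _
  | mul a b _ _ ha hb =>
    rw [lift_mul]
    exact mul_mem ha hb

theorem flip_mem (q : Fin (k + 1)) : swap (inl q) (inr q) ∈ WW k := by
  set f : Perm (Ix k) := lift (swap q (Fin.last k)) with hf
  have h1 : f * f = 1 := by
    rw [hf, ← lift_mul, Equiv.swap_mul_self, lift_one]
  have h2 : f⁻¹ = f := inv_eq_of_mul_eq_one_left h1
  have h := swap_apply_apply f (inl (Fin.last k)) (inr (Fin.last k))
  have h3 : f (inl (Fin.last k)) = inl q := by simp [hf]
  have h4 : f (inr (Fin.last k)) = inr q := by simp [hf]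
  rw [h3, h4, h2] at h
  rw [h]
  refine mul_mem (mul_mem (lift_mem _) ?_) (lift_mem _)
  exact Submonoid.subset_closure ⟨none, rfl⟩

theorem flip_bar (q : Fin (k + 1)) (x : Ix k) :
    (swap (inl q) (inr q) : Perm (Ix k)) (bar x) = bar (swap (inl q) (inr q) x) := by
  by_cases h1 : x = inl q
  · subst h1
    simp
  · by_cases h2 : x = inr q
    · subst h2
      simp
    · have h3 : bar x ≠ inl q := fun e => h2 (by rw [← bar_bar x, e]; rfl)
      have h4 : bar x ≠ inr q := fun e => h1 (by rw [← bar_bar x, e]; rfl)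
      rw [swap_apply_of_ne_of_ne h1 h2, swap_apply_of_ne_of_ne h3 h4]

theorem pair_mem (S : Finset (Fin (k + 1))) : ∀ ρ' : Perm (Ix k), (∀ x, ρ' (bar x) = bar (ρ' x)) →
    (∀ q, ρ' (inl q) = if q ∈ S then inr q else inl q) → ρ' ∈ WW k := by
  induction S using Finset.induction_on with
  | empty =>
    intro ρ' hb h
    have : ρ' = 1 := by
      ext x
      rcases x with q | q
      · rw [h]; simp
      · have := hb (inl q)
        rw [bar_inl, h] at this
        rw [this]; simp
    rw [this]
    exact one_mem _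
  | insert q S hq ih =>
    intro ρ' hb h
    have h1 : (swap (inl q) (inr q)) * ρ' ∈ WW k := by
      apply ih
      · intro x
        rw [Perm.mul_apply, Perm.mul_apply, hb, flip_bar]
      · intro q'
        rw [Perm.mul_apply, h]
        by_cases hqq : q' = q
        · subst hqq
          simp [hq]
        · have h2 : q' ∈ insert q S ↔ q' ∈ S := by simp [hqq]
          simp only [h2]
          have h3 : (inl q' : Ix k) ≠ inl q := fun e => hqq (Sum.inl_injective e)
          have h4 : (inr q' : Ix k) ≠ inr q := fun e => hqq (Sum.inr_injective e)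
          split_ifs
          · rw [swap_apply_of_ne_of_ne (by simp) h4]
          · rw [swap_apply_of_ne_of_ne h3 (by simp)]
    have h2 : ρ' = swap (inl q) (inr q) * (swap (inl q) (inr q) * ρ') := by
      rw [← mul_assoc, Equiv.swap_mul_self, one_mul]
    rw [h2]
    exact mul_mem (flip_mem q) h1

theorem bar_comm_mem (σ : Perm (Ix k)) (h : ∀ x, σ (bar x) = bar (σ x)) : σ ∈ WW k := by
  classical
  set f : Fin (k + 1) → Fin (k + 1) := fun q => (σ (inl q)).elim id id with hf
  have hfv : ∀ q, σ (inl q) = inl (f q) ∨ σ (inl q) = inr (f q) := by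
    intro q
    rcases e : σ (inl q) with x | x <;> simp [hf, e]
  have hfi : Function.Injective f := by
    intro q q' e
    have hb : σ (inr q) = bar (σ (inl q)) := h (inl q)
    by_contra hne
    have h1 : σ (inl q) ≠ σ (inl q') := fun e' => hne (Sum.inl_injective (σ.injective e'))
    have h2 : σ (inr q) ≠ σ (inl q') := fun e' => by simpa using σ.injective e'
    rcases hfv q with e1 | e1 <;> rcases hfv q' with e2 | e2
    · exact h1 (by rw [e1, e2, e])
    · apply h2
      rw [hb, e1, e2, e]
      rfl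
    · apply h2
      rw [hb, e1, e2, e]
      rfl
    · exact h1 (by rw [e1, e2, e])
  set τ : Perm (Fin (k + 1)) := Equiv.ofBijective f (Finite.injective_iff_bijective.1 hfi) with hτ
  have hτv : ∀ q, τ q = f q := fun q => rfl
  have hlb : ∀ τ' : Perm (Fin (k + 1)), ∀ x : Ix k, lift τ' (bar x) = bar (lift τ' x) := by
    intro τ' x
    rcases x with x | x <;> rfl
  have hli : (lift τ)⁻¹ = lift τ⁻¹ := by
    apply inv_eq_of_mul_eq_one_left
    rw [← lift_mul]
    simp [lift_one]
  set ρ' : Perm (Ix k) := (lift τ)⁻¹ * σ with hρ'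
  have h1 : ρ' ∈ WW k := by
    apply pair_mem (Finset.univ.filter (fun q => σ (inl q) = inr (f q)))
    · intro x
      rw [hρ', Perm.mul_apply, Perm.mul_apply, h, hli, hlb]
    · intro q
      rw [hρ', Perm.mul_apply, hli]
      have hne : (inl (f q) : Ix k) ≠ inr (f q) := by simp
      have hinv : τ⁻¹ (f q) = q := by
        rw [← hτv]
        simp
      rcases hfv q with e | e
      · rw [if_neg]
        · rw [e, lift_inl, hinv]
        · simp [e]
      · rw [if_pos]
        · rw [e, lift_inr, hinv]
        · simp [e]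
  have h2 : σ = lift τ * ρ' := by
    rw [hρ', ← mul_assoc, mul_inv_cancel, one_mul]
  rw [h2]
  exact mul_mem (lift_mem τ) h1

/-! ### Generation -/

theorem J_mulVec_inl (v : Ix k → F) (q : Fin (k + 1)) : (J (Fin (k + 1)) F *ᵥ v) (inl q) = -v (inr q) := by
  simp [J, mulVec, dotProduct, Fintype.sum_sum_type, Matrix.one_apply]

theorem J_mulVec_inr (v : Ix k → F) (q : Fin (k + 1)) : (J (Fin (k + 1)) F *ᵥ v) (inr q) = v (inl q) := by
  simp [J, mulVec, dotProduct, Fintype.sum_sum_type, Matrix.one_apply]

theorem sympTr_up (v : Ix k → F) (hv : ∀ q, v (inr q) = 0) (c : F) : sympTr v c ∈ upB rho pos := by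
  intro r s hrs
  rw [rho_apply, sympTr_coe]
  have hne : r ≠ s := by
    rintro rfl
    exact lt_irrefl _ hrs
  simp only [Cfsg.sympTransvection, Matrix.add_apply, Matrix.one_apply_ne hne, Matrix.smul_apply,
    vecMulVec_apply, zero_add, smul_eq_mul]
  rcases r with r | r
  · rcases s with s | s
    · rw [J_mulVec_inl, hv]
      simp
    · simp only [pos_inl, pos_inr] at hrs
      have := r.2
      have := s.2
      omega
  · rw [hv]
    simp

theorem conj_mem_K {K : Subgroup (SpG k F)} {g : SpG k F} (hg : g ∈ K) (v : Ix k → F) (c : F)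
    (h : sympTr ((g : Matrix (Ix k) (Ix k) F) *ᵥ v) c ∈ K) : sympTr v c ∈ K := by
  rw [← sympTr_conj] at h
  have e : sympTr v c = g⁻¹ * (g * sympTr v c * g⁻¹) * g := by group
  rw [e]
  exact mul_mem (mul_mem (inv_mem hg) h) hg

/-- `K`. -/
abbrev KK (k : ℕ) (F : Type*) [Field F] : Subgroup (SpG k F) := upB rho pos ⊔ monN rho

theorem symJ_mem : SymplecticGroup.symJ (Fin (k + 1)) F ∈ KK k F :=
  Subgroup.mem_sup_right (show _ ∈ monN rho from ⟨bar, J_mw⟩)

theorem tr_single_l (q : Fin (k + 1)) (c : F) : sympTr (Pi.single (inl q) 1 : Ix k → F) c ∈ KK k F :=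
  Subgroup.mem_sup_left (sympTr_up _ (by intro x; simp) c)

theorem tr_single_r (q : Fin (k + 1)) (c : F) : sympTr (Pi.single (inr q) 1 : Ix k → F) c ∈ KK k F := by
  apply conj_mem_K symJ_mem
  apply Subgroup.mem_sup_left
  apply sympTr_up
  intro x
  change (J (Fin (k + 1)) F *ᵥ _) (inr x) = 0
  rw [J_mulVec_inr]
  simp

theorem trans_mem [DecidablePred (fun x : F => x ≠ 0)] (n : ℕ) : ∀ v : Ix k → F, (Finset.univ.filter (fun q => v (inr q) ≠ 0)).card = n →
    ∀ c, sympTr v c ∈ KK k F := by
  induction n using Nat.strong_induction_on with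
  | _ n ih =>
    intro v hn c
    by_cases hz : ∀ q, v (inr q) = 0
    · exact Subgroup.mem_sup_left (sympTr_up v hz c)
    · push Not at hz
      obtain ⟨q, hq⟩ := hz
      have stepA : ∀ v' : Ix k → F, v' (inl q) ≠ 0 → (∀ x, x ≠ q → v' (inr x) = v (inr x)) →
          sympTr v' c ∈ KK k F := by
        intro v' h1 h2
        set c' : F := v' (inr q) / v' (inl q) with hc'
        apply conj_mem_K (tr_single_r q c')
        rw [sympTr_coe, sympT_mulVec, sympForm_right_single_inr]
        set v'' : Ix k → F := v' + (c' * -v' (inl q)) • (Pi.single (inr q) 1 : Ix k → F) with hv''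
        have h3 : ∀ x, v'' (inr x) = if x = q then 0 else v (inr x) := by
          intro x
          by_cases hx : x = q
          · subst hx
            simp only [hv'', Pi.add_apply, Pi.smul_apply, Pi.single_eq_same, smul_eq_mul, mul_one, if_true, hc']
            field_simp
            ring
          · rw [if_neg hx, ← h2 x hx]
            have : (inr x : Ix k) ≠ inr q := fun e => hx (Sum.inr_injective e)
            simp [hv'', Pi.single_eq_of_ne this]
        refine ih _ ?_ v'' rfl c
        rw [← hn]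
        apply Finset.card_lt_card
        rw [Finset.ssubset_iff_of_subset]
        · refine ⟨q, by simpa using hq, ?_⟩
          simp [h3]
        · intro x hx
          simp only [Finset.mem_filter, Finset.mem_univ, true_and, h3] at hx ⊢
          split_ifs at hx with hxq
          · exact absurd rfl hx
          · exact hx
      by_cases hl : v (inl q) = 0
      · apply conj_mem_K (tr_single_l q 1)
        rw [sympTr_coe, sympT_mulVec, sympForm_right_single_inl]
        apply stepA
        · simp [hl, hq]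
        · intro x hx
          have : (inr x : Ix k) ≠ inl q := by simp
          simp [Pi.single_eq_of_ne this]
      · exact stepA v hl (fun _ _ => rfl)

theorem gen_top : KK k F = ⊤ := by
  rw [eq_top_iff, ← trSubgroup_top, trSubgroup, Subgroup.closure_le]
  rintro A ⟨w, -, c, hA⟩
  have : A = sympTr w c := Subtype.ext hA
  rw [this]
  classical
  exact trans_mem _ w rfl c

/-- The data. -/
def data : Data (rho (k := k) (F := F)) pos (Option (Fin k)) where
  hρ := Subtype.val_injective
  hpos := pos_inj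
  s := sD
  π := piD
  X := XD
  D := DD
  s_mon := by
    rintro (_ | i)
    · exact sL_mw _
    · exact sP_mw _
  π_sq := by
    rintro (_ | i)
    · exact Equiv.swap_mul_self _ _
    · change lift _ * lift _ = 1
      rw [← lift_mul, Equiv.swap_mul_self, lift_one]
  π_inj := piD_inj
  gen := gen_top
  W_gen := fun g σ hσ => bar_comm_mem σ (mon_bar hσ)
  D_lt := DD_lt
  D_rev := DD_rev
  D_inv := DD_inv
  X_supp := XD_supp
  X_diag := XD_diag
  fact := XD_fact
  R := XD_R
  dich := XD_dich
  ne := XD_ne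

theorem hdiag_sp (b : SpG k F) (hb : b ∈ upB rho pos) :
    ∃ t : SpG k F, ∀ r c, rho t r c = if r = c then rho b r r else 0 := by
  have hd : ∀ x : Ix k, b.1 x x * b.1 (bar x) (bar x) = 1 := by
    rintro (x | x)
    · exact up_diag hb x
    · rw [mul_comm]
      exact up_diag hb x
  refine ⟨⟨Matrix.diagonal (fun x => b.1 x x), ?_⟩, ?_⟩
  · rw [SymplecticGroup.mem_iff]
    ext r t
    rw [Matrix.diagonal_transpose, Matrix.mul_diagonal, Matrix.diagonal_mul]
    by_cases h : t = bar r
    · subst h
      have := hd r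
      linear_combination (J (Fin (k + 1)) F r (bar r)) * this
    · rw [J_off r t h]
      simp
  · intro r c
    rw [rho_apply]
    simp only [Matrix.diagonal_apply, rho_apply]

theorem hk_sp (A : SpG k F) (hA : A ∈ Subgroup.center (SpG k F)) : A ∈ upB rho pos ⊓ monN rho := by
  have h := sp_central_one_or_neg (m := k + 1) (by omega) A hA
  constructor
  · intro r c hrc
    have hne : r ≠ c := by
      rintro rfl
      exact lt_irrefl _ hrc
    rw [rho_apply]
    rcases h with h | h <;> rw [h]
    · exact Matrix.one_apply_ne hne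
    · rw [Matrix.neg_apply, Matrix.one_apply_ne hne, neg_zero]
  · refine ⟨1, fun r c => ?_⟩
    rw [rho_apply]
    by_cases hrc : r = c
    · subst hrc
      rcases h with h | h <;> rw [h] <;> simp
    · have hc : c ≠ (1 : Perm (Ix k)) r := fun e => hrc e.symm
      rcases h with h | h <;> rw [h] <;> simp [Matrix.one_apply_ne hrc, hc, Ne.symm hrc]

/-- The Steinberg character of `PSp`. -/
theorem psp_steinberg [Fintype F] (p : ℕ) [hp : Fact p.Prime] [CharP F p] (k : ℕ) :
    ∃ χ : Cfsg.PSp (k + 1) F → ℂ, Cfsg.IsIrrCharacter (Cfsg.PSp (k + 1) F) χ ∧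
      ∀ P : Sylow p (Cfsg.PSp (k + 1) F), χ 1 = Nat.card P ∧
        ∀ x : Cfsg.PSp (k + 1) F, x ∈ P → x ≠ 1 → χ x = 0 := by
  classical
  refine Data.steinberg (data (k := k) (F := F)) (QuotientGroup.mk' (Subgroup.center (SpG k F))) p
    (QuotientGroup.mk'_surjective _) ?_ hdiag_sp (w := SymplecticGroup.symJ (Fin (k + 1)) F) (σ₀ := bar) J_mw ?_
  · intro A hA
    rw [QuotientGroup.ker_mk'] at hA
    exact hk_sp A hA
  · intro x y h
    have h1 := pos_bar x
    have h2 := pos_bar y
    omega

end Cfsg.Agent.Lib.H14.SpBN
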